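import Cfsg.Agent.H8.SymDes
import Cfsg.Agent.H8.ONan1

/-!
Axial automorphisms of symmetric designs.
-/

set_option autoImplicit false

namespace Cfsg.Agent.H8

open MulAction Finset

variable {P B : Type*} [Fintype P] [Fintype B] {inc : P → B → Prop} [∀ p b, Decidable (inc p b)]
  {k lam : ℕ}

theorem SD.dual (D : SD inc k lam) : SD (fun b p => inc p b) k lam :=
  ⟨D.pt, D.blk, D.bb, D.pp, D.lt, D.card_eq.symm⟩

theorem SD.eq_of_lt (D : SD inc k lam) {b c : B} (S : Finset P) (hb : ∀ p ∈ S, inc p b)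
    (hc : ∀ p ∈ S, inc p c) (h : lam < #S) : b = c := by
  by_contra hne
  have h1 : S ⊆ univ.filter (fun p => inc p b ∧ inc p c) := fun p hp => by simp [hb p hp, hc p hp]
  have := card_le_card h1
  rw [D.bb hne] at this
  omega

theorem SD.eq_of_sub (D : SD inc k lam) {b c : B} (h : ∀ p, inc p b → inc p c) : b = c :=
  D.eq_of_lt {p | inc p b} (by simp) (by simpa using h) (by rw [D.blk]; exact D.lt)

theorem SD.sub_swap (D : SD inc k lam) {b c e f : B} (hbc : b ≠ c) (hef : e ≠ f)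
    (h : ∀ p, inc p b → inc p c → inc p e ∧ inc p f) (p : P) (he : inc p e) (hf : inc p f) :
    inc p b ∧ inc p c := by
  have h1 : univ.filter (fun p => inc p b ∧ inc p c) = univ.filter (fun p => inc p e ∧ inc p f) :=
    eq_of_subset_of_card_le (fun p hp => by simpa using h p (by simp_all) (by simp_all))
      (by rw [D.bb hbc, D.bb hef])
  simpa using h1.ge (show p ∈ _ by simp [he, hf])

theorem SD.eq_of_insert (D : SD inc k lam) {b c e f : B} (hbc : b ≠ c) {x : P} (hx : ¬ inc x b)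
    (he : ∀ p, inc p b → inc p c → inc p e) (hf : ∀ p, inc p b → inc p c → inc p f)
    (hxe : inc x e) (hxf : inc x f) : e = f := by
  classical
  refine D.eq_of_lt (insert x (univ.filter fun p => inc p b ∧ inc p c)) ?_ ?_ ?_
  · simpa [hxe] using he
  · simpa [hxf] using hf
  · rw [card_insert_of_notMem (by simp [hx]), D.bb hbc]; omega

variable {G : Type*} [Group G] [MulAction G P] [MulAction G B]

theorem SD.fix_block (D : SD inc k lam) (hinv : ∀ (g : G) p b, inc (g • p) (g • b) ↔ inc p b)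
    {g : G} {b c : B} {x : P} (hg : ∀ p, inc p b → g • p = p) (hx : ¬ inc x b) (hgx : g • x = x)
    (hc : inc x c) : g • c = c :=
  D.eq_of_insert (b := b) (c := c) (fun e => hx (e ▸ hc)) hx
    (fun p h1 h2 => by rw [← hg p h1, hinv]; exact h2) (fun _ _ h => h)
    (by rw [← hgx, hinv]; exact hc) hc

theorem SD.fix_all (D : SD inc k lam) (hinv : ∀ (g : G) p b, inc (g • p) (g • b) ↔ inc p b)
    (hl : 0 < lam) {g : G} {b : B} {x y : P} (hg : ∀ p, inc p b → g • p = p) (hx : ¬ inc x b)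
    (hy : ¬ inc y b) (hxy : x ≠ y) (hgx : g • x = x) (hgy : g • y = y) (z : P) : g • z = z := by
  classical
  have key : ∀ z u w, g • z ≠ z → ¬ inc u b → g • u = u → ¬ inc w b → g • w = w →
      ∀ e, inc z e → inc u e → inc w e := by
    intro z u w hz hu hgu hw hgw e hze hue
    have h1 : ∀ u, ¬ inc u b → g • u = u → ∀ e, inc z e → inc u e → inc z e ∧ inc (g • z) e :=
      fun u hu hgu e h1 h2 => ⟨h1, by rw [← D.fix_block hinv hg hu hgu h2, hinv]; exact h1⟩
    exact (D.dual.sub_swap (b := z) (c := w) (fun e => hz (e ▸ hgw)) hz.symm (h1 w hw hgw) e hze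
      (h1 u hu hgu e hze hue).2).2
  obtain ⟨c, hxc, hyc⟩ : ∃ c, inc x c ∧ ¬ inc y c := by
    by_contra h
    push Not at h
    exact hxy (D.dual.eq_of_sub h)
  have hc : ∀ w, inc w c → g • w = w := fun w hw => by
    by_contra h
    exact hyc (key w x y h hx hgx hy hgy c hw hxc)
  by_contra hz
  obtain ⟨e, he⟩ : (univ.filter fun e => inc z e ∧ inc x e).Nonempty := by
    rw [← card_pos, D.pp (fun e : z = x => hz (e ▸ hgx))]; exact hl
  obtain ⟨hze, hxe⟩ := (mem_filter.mp he).2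
  have hzb : ¬ inc z b := fun h => hz (hg z h)
  have hzc : ¬ inc z c := fun h => hz (hc z h)
  have h1 : insert y (insert z ((univ.filter fun p => inc p c ∧ ¬ inc p b) ∪
      univ.filter fun p => inc p e ∧ inc p b)) ⊆ univ.filter fun p => inc p e := by
    intro p hp
    simp only [mem_insert, mem_union, mem_filter, mem_univ, true_and] at hp ⊢
    rcases hp with rfl | rfl | h | h
    · exact key z x p hz hx hgx hy hgy e hze hxe
    · exact hze
    · exact key z x p hz hx hgx h.2 (hc p h.1) e hze hxe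
    · exact h.1
  have h2 := card_le_card h1
  have hyz : y ≠ z := fun e => hz (e ▸ hgy)
  rw [card_insert_of_notMem (by simp [hyz, hyc, hy]), card_insert_of_notMem (by simp [hzb, hzc]),
    card_union_of_disjoint (disjoint_filter.mpr fun p _ h1 h2 => h1.2 h2.2), D.blk,
    D.bb (fun h : e = b => hx (h ▸ hxe))] at h2
  have h3 := card_filter_add_card_filter_not (s := univ.filter fun p => inc p c)
    (fun p => inc p b)
  rw [filter_filter, filter_filter, D.blk, D.bb (fun h : c = b => hx (h ▸ hxc))] at h3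
  omega

variable (inc G) in
/-- The pointwise stabilizer of a block. -/
def axial (b : B) : Subgroup G where
  carrier := {g | ∀ p, inc p b → g • p = p}
  mul_mem' ha hb p hp := by rw [mul_smul, hb p hp, ha p hp]
  one_mem' p _ := one_smul G p
  inv_mem' ha p hp := by rw [inv_smul_eq_iff, ha p hp]

omit [Fintype P] [Fintype B] [∀ p b, Decidable (inc p b)] in
theorem axial_conj (hinv : ∀ (g : G) p b, inc (g • p) (g • b) ↔ inc p b) (a : G) {b : B} {g : G}
    (hg : g ∈ axial inc G b) : a * g * a⁻¹ ∈ axial inc G (a • b) := fun p hp => by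
  rw [mul_smul, mul_smul, hg _ (by rw [← hinv a, smul_inv_smul]; exact hp), smul_inv_smul]

theorem SD.axial_fix (D : SD inc k lam) (hinv : ∀ (g : G) p b, inc (g • p) (g • b) ↔ inc p b)
    {b : B} {g : G} (hg : g ∈ axial inc G b) : g • b = b :=
  (D.eq_of_sub fun p hp => by rw [← hg p hp, hinv]; exact hp).symm

theorem sum_card_inf_stabilizer {G X : Type*} [Group G] [Finite G] [Fintype X] [DecidableEq X]
    [MulAction G X] (N : Subgroup G) {k : ℕ} (h : ∀ g ∈ N, g ≠ 1 → #{e : X | g • e = e} = k) :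
    ∑ c : X, Nat.card (N ⊓ stabilizer G c : Subgroup G) + k = Fintype.card X + Nat.card N * k := by
  classical
  have := Fintype.ofFinite G
  have h1 : ∀ c : X, Nat.card (N ⊓ stabilizer G c : Subgroup G) =
      ∑ g ∈ univ.filter (· ∈ N), if g • c = c then 1 else 0 := fun c => by
    rw [Nat.card_eq_fintype_card, Fintype.card_subtype, ← card_filter, filter_filter]
    exact congrArg _ (filter_congr fun g _ => Iff.rfl)
  have h6 : (1 : G) ∈ univ.filter (· ∈ N) := by simp [one_mem]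
  have h5 : #(univ.filter (· ∈ N)) = Nat.card N := by
    rw [Nat.card_eq_fintype_card, Fintype.card_subtype]
  simp only [h1]
  rw [sum_comm]
  simp only [← card_filter]
  rw [← add_sum_erase _ _ h6, sum_congr rfl fun g hg =>
    h g (mem_filter.mp (mem_erase.mp hg).2).2 (mem_erase.mp hg).1, sum_const, smul_eq_mul,
    ← h5, ← card_erase_add_one h6]
  simp only [one_smul, filter_true, card_univ]
  ring

/-- The case of elations only. -/
theorem SD.exists_normal_abelian_of_semiregular [Finite G] (D : SD inc k lam)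
    (hinv : ∀ (g : G) p b, inc (g • p) (g • b) ↔ inc p b) (hk : 2 ≤ k)
    (h2 : ∀ {b c b' c' : B}, b ≠ c → b' ≠ c' → ∃ g : G, g • b = b' ∧ g • c = c')
    (hsr : ∀ b, ∀ g ∈ axial inc G b, ∀ y, ¬ inc y b → g • y = y → g = 1)
    (b : B) (hb : axial inc G b ≠ ⊥) {x : P} (hx : ¬ inc x b) :
    ∃ Z : Subgroup G, Z ≤ axial inc G b ∧ Z ≠ ⊥ ∧ (∀ a ∈ Z, ∀ a' ∈ Z, a * a' = a' * a) ∧
      ∀ n ∈ axial inc G b, ∀ a ∈ Z, n * a * n⁻¹ ∈ Z := by
  classical
  set N := axial inc G with hN
  have hfix : ∀ b, ∀ g ∈ N b, g ≠ 1 → #{e : B | g • e = e} = k := fun b g hg h1 => by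
    rw [← D.card_fix hinv, ← D.blk b]
    exact congrArg _ (filter_congr fun p _ =>
      ⟨fun h => by_contra fun h' => h1 (hsr b g hg p h' h), hg p⟩)
  obtain ⟨c₀, hc₀⟩ : (univ.filter fun c => inc x c).Nonempty := by
    rw [← card_pos, D.pt]; omega
  have hbc₀ : b ≠ c₀ := fun e => hx (e ▸ (mem_filter.mp hc₀).2)
  have hM : ∀ {b c b' c'}, b ≠ c → b' ≠ c' → Nat.card (N b ⊓ stabilizer G c : Subgroup G) ≤
      Nat.card (N b' ⊓ stabilizer G c' : Subgroup G) := fun h h' => by
    obtain ⟨g, rfl, rfl⟩ := h2 h h'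
    exact card_le_of_conj g fun a ha => Subgroup.mem_inf.mpr ⟨axial_conj hinv g ha.1, by
      rw [mem_stabilizer_iff, mul_smul, mul_smul, inv_smul_smul, ha.2]⟩
  have hn : ∀ {b c b' c'}, b ≠ c → b' ≠ c' → Nat.card (N b) ≤ Nat.card (N b') := fun h h' => by
    obtain ⟨g, rfl, rfl⟩ := h2 h h'
    exact card_le_of_conj g fun a ha => axial_conj hinv g ha
  set M := Nat.card (N b ⊓ stabilizer G c₀ : Subgroup G) with hMdef
  set s := Nat.card (orbit (N b) c₀) with hsdef
  have hsM : s * M = Nat.card (N b) := card_orbit_mul _ _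
  have hM0 : 0 < M := Nat.card_pos
  have hs : ∀ {b' c'}, b' ≠ c' → Nat.card (orbit (N b') c') = s := fun {b' c'} h => by
    have h1 := card_orbit_mul (N b') c'
    rw [le_antisymm (hM h hbc₀) (hM hbc₀ h), le_antisymm (hn h hbc₀) (hn hbc₀ h), ← hsM] at h1
    exact Nat.eq_of_mul_eq_mul_right hM0 h1
  have hNb : ∀ {b c}, ∀ g ∈ N b, c ≠ b → g • c ≠ b := fun g hg h e =>
    h (by rw [← smul_left_cancel_iff g, e, D.axial_fix hinv hg])
  have hvk : k < Fintype.card B := by
    rw [← D.card_eq, ← D.blk b]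
    exact card_lt_card (filter_ssubset.mpr ⟨x, mem_univ _, hx⟩)
  have hs1 : s ∣ k - 1 := by
    have h1 : s ∣ Fintype.card B - 1 := by
      rw [← card_univ, ← card_erase_of_mem (mem_univ b)]
      exact dvd_card_of_orbits (N b) _ (fun g hg c hc => by simpa using hNb g hg (by simpa using hc))
        fun c hc => (hs (mem_erase.mp hc).1.symm).symm.dvd
    have h3 : s ∣ #{p | ¬ inc p b} := by
      refine dvd_card_of_orbits (N b) _ (fun g hg p hp => ?_) fun p hp => ?_
      · rw [mem_filter_univ] at hp ⊢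
        rwa [← D.axial_fix hinv hg, hinv]
      · rw [mem_filter_univ] at hp
        have h4 := card_orbit_mul (N b) p
        rw [(Subgroup.eq_bot_iff_forall (N b ⊓ stabilizer G p)).mpr
          fun g hg => hsr b g hg.1 p hp hg.2,
          Subgroup.card_bot, mul_one] at h4
        exact ⟨M, h4.trans hsM.symm⟩
    have h4 := card_filter_add_card_filter_not (s := univ) (fun p => inc p b)
    rw [D.blk, card_univ, D.card_eq] at h4
    have h5 := Nat.dvd_sub h1 h3
    rwa [show Fintype.card B - 1 - #{p | ¬ inc p b} = k - 1 by omega] at h5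
  have hcount : ((Fintype.card B : ℤ) - 1) * (M - 1) = (s * M - 1) * (k - 1) := by
    have h4 := sum_card_inf_stabilizer (N b) (hfix b)
    rw [← add_sum_erase _ _ (mem_univ b), sum_congr rfl fun c hc =>
      le_antisymm (hM (mem_erase.mp hc).1.symm hbc₀) (hM hbc₀ (mem_erase.mp hc).1.symm),
      inf_eq_left.mpr fun g hg => D.axial_fix hinv hg, ← hsM, sum_const,
      card_erase_of_mem (mem_univ b), card_univ, smul_eq_mul, ← hMdef] at h4
    zify [show 1 ≤ Fintype.card B by omega] at h4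
    linear_combination h4
  have hn2 : 2 ≤ s * M := by rw [hsM]; exact (Subgroup.one_lt_card_iff_ne_bot _).mpr hb
  have hM2 : 2 ≤ M := by
    by_contra h
    have h1 : M = 1 := by omega
    rw [h1] at hcount hn2
    have h3 : (0 : ℤ) < (s * (1 : ℕ) - 1) * (k - 1) := mul_pos (by omega) (by omega)
    omega
  let L : B → B → Finset B := fun b c => (univ.filter fun e => ∀ p, inc p b → inc p c → inc p e).erase b
  have hLm : ∀ {b c e}, e ∈ L b c ↔ e ≠ b ∧ ∀ p, inc p b → inc p c → inc p e := by simp [L]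
  have hLs : ∀ (g : G) {b c e}, e ∈ L b c → g • e ∈ L (g • b) (g • c) := fun g {b c e} he => by
    rw [hLm] at he ⊢
    refine ⟨by simpa using he.1, fun p h1 h3 => ?_⟩
    rw [← smul_inv_smul g p, hinv] at h1 h3 ⊢
    exact he.2 _ h1 h3
  have hLc : ∀ {b c b' c'}, b ≠ c → b' ≠ c' → #(L b c) ≤ #(L b' c') := fun h h' => by
    obtain ⟨g, rfl, rfl⟩ := h2 h h'
    exact card_le_card_of_injOn (g • ·) (fun e he => hLs g he) (MulAction.injective g).injOn
  have hLN : ∀ {b c d e}, d = b ∨ d = c → ∀ g ∈ N d, (∀ p, inc p b → inc p c → inc p e) →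
      ∀ p, inc p b → inc p c → inc p (g • e) := by
    intro b c d e hd g hg he p h1 h3
    rw [← hg p (by rcases hd with rfl | rfl <;> assumption), hinv]
    exact he p h1 h3
  have hLs0 : #(L b c₀) = s := by
    obtain ⟨t, ht⟩ : s ∣ #(L b c₀) := dvd_card_of_orbits (N b) _ (fun g hg e he => by
      rw [hLm] at he ⊢
      exact ⟨hNb g hg he.1, hLN (Or.inl rfl) g hg he.2⟩) fun e he => (hs (hLm.mp he).1.symm).symm.dvd
    have h1 : k * #(L b c₀) ≤ Fintype.card B - 1 := by
      rw [← card_univ, ← card_erase_of_mem (mem_univ b)]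
      refine le_trans ?_ (card_le_card ((biUnion_subset (s := univ.filter fun e => inc x e)
        (t := L b)).mpr fun e _ => erase_subset_erase _ (subset_univ _)))
      rw [card_biUnion, ← D.pt x, ← smul_eq_mul]
      · exact card_nsmul_le_sum _ _ _ fun e he =>
          hLc hbc₀ fun h => hx (h ▸ (mem_filter.mp he).2)
      · intro e he e' he' hne
        rw [Function.onFun, disjoint_left]
        intro f h1 h3
        rw [hLm] at h1 h3
        rw [coe_filter_univ] at he he'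
        have h4 : ∀ {e}, inc x e → (∀ p, inc p b → inc p e → inc p f) →
            ∀ p, inc p b → inc p f → inc p e := fun {e} he h p h5 h6 =>
          (D.sub_swap (fun h : b = e => hx (h ▸ he)) h1.1.symm
            (fun p h5 h6 => ⟨h5, h p h5 h6⟩) p h5 h6).2
        exact hne (D.eq_of_insert h1.1.symm hx (h4 he h1.2) (h4 he' h3.2) he he')
    have h3 : 0 < #(L b c₀) := card_pos.mpr ⟨c₀, hLm.mpr ⟨hbc₀.symm, fun _ _ h => h⟩⟩
    rw [ht] at h1 h3 ⊢
    obtain _ | _ | t := t
    · omega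
    · omega
    exfalso
    have h4 : (k : ℤ) * (s * (t + 2)) ≤ Fintype.card B - 1 := by
      zify [show 1 ≤ Fintype.card B by omega] at h1
      linarith
    have h5 : (0 : ℤ) ≤ k * s * t * (M - 1) := by
      have : (0 : ℤ) ≤ M - 1 := by omega
      positivity
    have h6 : (0 : ℤ) ≤ k * s * (M - 2) := by
      have : (0 : ℤ) ≤ M - 2 := by omega
      positivity
    have h7 := mul_le_mul_of_nonneg_right h4 (show (0 : ℤ) ≤ M - 1 by omega)
    zify at hn2 hk
    nlinarith
  have hLfix : ∀ {b c}, b ≠ c → ∀ g ∈ N b, g • c = c → ∀ e ∈ L b c, g • e = e := by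
    intro b c hbc g hg hgc e he
    by_cases hg1 : g = 1
    · rw [hg1, one_smul]
    have hgb := D.axial_fix hinv hg
    let F := (univ.filter fun e : B => g • e = e).erase b
    have hF : ∀ {e}, e ∈ F ↔ e ≠ b ∧ g • e = e := by simp [F]
    have h1 : #F = k - 1 := by rw [card_erase_of_mem (by simpa using hgb), hfix b g hg hg1]
    have hcL : c ∈ L b c := hLm.mpr ⟨hbc.symm, fun _ _ h => h⟩
    have h3 : s ∣ #(F \ L b c) := by
      refine dvd_card_of_orbits (N c) _ (fun n hn e he => ?_) fun e he =>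
        (hs fun h : c = e => (mem_sdiff.mp he).2 (h ▸ hcL)).symm.dvd
      rw [mem_sdiff, hF, hLm] at he ⊢
      have hce : c ≠ e := fun h => he.2 (hLm.mp (h ▸ hcL))
      have h4 : ¬ ∀ p, inc p b → inc p c → inc p (n • e) := fun h =>
        he.2 ⟨he.1.1, by simpa using hLN (Or.inr rfl) _ (inv_mem hn) h⟩
      have h5 : n • e ≠ b := fun h => h4 fun p h1 _ => h ▸ h1
      refine ⟨⟨h5, by_contra fun h6 => ?_⟩, fun h => h4 h.2⟩
      have h7 : ∀ p, inc p c → inc p e → inc p (n • e) ∧ inc p (g • n • e) := fun p h1 h3 => by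
        have h8 : ∀ p, inc p c → inc p e → inc p (n • e) := hLN (Or.inl rfl) n hn fun _ _ h => h
        refine ⟨h8 p h1 h3, ?_⟩
        rw [← smul_inv_smul g p, hinv]
        exact h8 _ (by rwa [← hinv g, smul_inv_smul, hgc])
          (by rwa [← hinv g, smul_inv_smul, he.1.2])
      refine he.2 ⟨he.1.1, fun p h1 h3 => (D.sub_swap hce hbc.symm (fun p h1 h3 => ⟨h1, ?_⟩) p h3 h1).2⟩
      exact (D.sub_swap h5 (Ne.symm h6) (fun p h1 h3 => ⟨h1, by rw [← hg p h3, hinv]; exact h1⟩) p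
        (h7 p h1 h3).1 (h7 p h1 h3).2).2
    have h4 := card_sdiff_add_card_inter F (L b c)
    have h5 : s ∣ #(F ∩ L b c) := (Nat.dvd_add_right h3).mp (by rw [h4, h1]; exact hs1)
    have h6 : F ∩ L b c = L b c := eq_of_subset_of_card_le inter_subset_right
      (((hLc hbc hbc₀).trans hLs0.le).trans (Nat.le_of_dvd (card_pos.mpr
        ⟨c, mem_inter.mpr ⟨hF.mpr ⟨hbc.symm, hgc⟩, hcL⟩⟩) h5))
    exact (hF.mp (mem_inter.mp (h6.ge he)).1).2
  have hcomm : ∀ {b c}, b ≠ c → ∀ a ∈ N b, a • c = c → ∀ h ∈ N c, h • b = b → a * h = h * a := by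
    intro b c hbc a ha hac h hh hhb
    obtain ⟨y, hy, hy'⟩ : ∃ y, inc y c ∧ ¬ inc y b := by
      by_contra h
      push Not at h
      exact hbc (D.eq_of_sub h).symm
    have h1 : a * h * a⁻¹ * h⁻¹ ∈ N b := by
      have := axial_conj hinv h (inv_mem ha)
      rw [hhb] at this
      simpa only [mul_assoc] using mul_mem ha this
    have h3 : a * h * a⁻¹ * h⁻¹ ∈ N c := mul_mem (hac ▸ axial_conj hinv a hh) (inv_mem hh)
    have h4 := hsr b _ h1 y hy' (h3 y hy)
    rwa [mul_inv_eq_one, mul_inv_eq_iff_eq_mul] at h4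
  have hNL : ∀ n ∈ N b, n • c₀ ∈ L b c₀ := fun n hn =>
    hLm.mpr ⟨hNb n hn hbc₀.symm, hLN (Or.inl rfl) n hn fun _ _ h => h⟩
  let A : Subgroup G := N b ⊓ stabilizer G c₀
  have hA : ∀ n ∈ N b, ∀ a ∈ A, n * a * n⁻¹ ∈ A := fun n hn a ha =>
    Subgroup.mem_inf.mpr ⟨mul_mem (mul_mem hn ha.1) (inv_mem hn), by
      rw [mem_stabilizer_iff, mul_smul, mul_smul,
        hLfix hbc₀ a ha.1 ha.2 _ (hNL _ (inv_mem hn)), smul_inv_smul]⟩
  refine ⟨A ⊓ Subgroup.centralizer A, fun a ha => ha.1.1, ?_, fun a ha a' ha' => ha'.2 a ha.1,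
    fun n hn a ha => ⟨hA n hn a ha.1, fun a' ha' => ?_⟩⟩
  swap
  · have := ha.2 _ (hA _ (inv_mem hn) a' ha')
    rw [inv_inv] at this
    calc a' * (n * a * n⁻¹) = n * (n⁻¹ * a' * n * a) * n⁻¹ := by group
      _ = _ := by rw [this]; group
  obtain ⟨n, hn, hnc⟩ : ∃ n ∈ N b, n • c₀ ≠ c₀ := by
    by_contra h
    push Not at h
    obtain ⟨⟨g, hg⟩, hg1⟩ := Subgroup.ne_bot_iff_exists_ne_one.mp hb
    have h1 := hfix b g hg fun e => hg1 (Subtype.ext e)
    rw [filter_true_of_mem, card_univ] at h1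
    · omega
    intro e _
    by_cases he : b = e
    · exact he ▸ D.axial_fix hinv hg
    obtain ⟨a, ha, rfl⟩ := h2 hbc₀ he
    have := h _ (show a⁻¹ * g * a⁻¹⁻¹ ∈ N b by
      simpa only [inv_smul_eq_iff.mpr ha.symm] using axial_conj hinv a⁻¹ hg)
    rwa [inv_inv, mul_smul, mul_smul, inv_smul_eq_iff] at this
  obtain ⟨⟨h, hh, hhb⟩, hh1⟩ := Subgroup.ne_bot_iff_exists_ne_one.mp
    ((Subgroup.one_lt_card_iff_ne_bot _).mp (hM2.trans (hM hbc₀ hbc₀.symm)))
  replace hh1 : h ≠ 1 := fun e => hh1 (Subtype.ext e)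
  replace hhb : h • b = b := hhb
  have hhc : h • c₀ = c₀ := D.axial_fix hinv hh
  have hhn : h • n • c₀ = n • c₀ := hLfix hbc₀.symm h hh hhb _
    (hLm.mpr ⟨hnc, fun p h1 h3 => (hLm.mp (hNL n hn)).2 p h3 h1⟩)
  refine Subgroup.ne_bot_iff_exists_ne_one.mpr ⟨⟨n⁻¹ * (h * n * h⁻¹), Subgroup.mem_inf.mpr
    ⟨mul_mem (inv_mem hn) (hhb ▸ axial_conj hinv h hn), ?_⟩, fun a ha => ?_⟩, fun e => hnc ?_⟩
  · rw [mem_stabilizer_iff, mul_smul, mul_smul, mul_smul,
      inv_smul_eq_iff.mpr hhc.symm, hhn, inv_smul_smul]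
  · have h1 := hcomm hbc₀ a ha.1 ha.2 h hh hhb
    have h3 := hA n hn a ha
    have h4 := hcomm hbc₀ _ h3.1 h3.2 h hh hhb
    calc a * (n⁻¹ * (h * n * h⁻¹)) = n⁻¹ * (n * a * n⁻¹ * h) * n * h⁻¹ := by group
      _ = n⁻¹ * h * n * h⁻¹ * (h * a) * h⁻¹ := by rw [h4]; group
      _ = _ := by rw [← h1]; group
  · have h1 : h * n = n * h := by
      have := congrArg Subtype.val e
      rwa [OneMemClass.coe_one, inv_mul_eq_one, eq_mul_inv_iff_mul_eq, eq_comm] at this
    refine (D.eq_of_sub fun p hp => by_contra fun h3 => hh1 (hsr c₀ h hh (n⁻¹ • p) ?_ ?_)).symm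
    · rwa [← hinv n, smul_inv_smul]
    · rw [eq_inv_smul_iff, ← mul_smul, ← h1, mul_smul, smul_inv_smul, hh p hp]

end Cfsg.Agent.H8
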