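import Cfsg.Agent.H8.Ito1
import Cfsg.Agent.H8.ONan5
import Cfsg.Agent.H3.Frobenius
import Cfsg.Agent.H6.Basic
import Cfsg.Agent.H7.Fitting
import Cfsg.Agent.H9.FpfNilpotent

/-!
Ito's theorem on symmetric designs with axial automorphisms.
-/

set_option autoImplicit false

namespace Cfsg.Agent.H8

open MulAction Finset

theorem exists_abelian_of_fittingIn {G : Type*} [Group G] [Finite G] {K S : Subgroup G}
    (hKS : H7.NormalIn K S) (hF : H7.fittingIn K ≠ ⊥) :
    ∃ V : Subgroup G, V ≤ K ∧ V ≠ ⊥ ∧ (∀ g ∈ S, ∀ n ∈ V, g * n * g⁻¹ ∈ V) ∧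
      ∀ a ∈ V, ∀ b ∈ V, a * b = b * a := by
  have h1 := hKS.fittingIn
  have := h1.subgroupOf_normal
  have h2 := H7.isNilpotent_comap_of_injective (H7.fittingIn_isNilpotent K) S.subtype_injective
  obtain ⟨V, p, hVn, hV, hV0, -, -, hc⟩ := H6.exists_normal_elementary
    ((H7.fittingIn K).subgroupOf S) (fun h => hF (by
      rw [← Subgroup.map_subgroupOf_eq_of_le h1.1, h, Subgroup.map_bot]))
    (show Group.IsSolvable ((H7.fittingIn K).comap S.subtype) from inferInstance)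
  refine ⟨V.map S.subtype, ?_, ?_, ?_, ?_⟩
  · rintro _ ⟨a, ha, rfl⟩
    exact H7.fittingIn_le K (hV ha)
  · rwa [Ne, Subgroup.map_eq_bot_iff_of_injective _ S.subtype_injective]
  · rintro g hg _ ⟨a, ha, rfl⟩
    exact ⟨_, hVn.conj_mem a ha ⟨g, hg⟩, rfl⟩
  · rintro _ ⟨a, ha, rfl⟩ _ ⟨b, hb, rfl⟩
    exact congrArg Subtype.val (hc a ha b hb)

variable {P B : Type*} [Fintype P] [Fintype B] {inc : P → B → Prop} [∀ p b, Decidable (inc p b)]
  {k lam : ℕ} {G : Type*} [Group G] [MulAction G P] [MulAction G B]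

theorem SD.ito [Finite G] [FaithfulSMul G P] (D : SD inc k lam)
    (hinv : ∀ (g : G) p b, inc (g • p) (g • b) ↔ inc p b) (hk : 2 ≤ k)
    (h2 : ∀ {b c b' c' : B}, b ≠ c → b' ≠ c' → ∃ g : G, g • b = b' ∧ g • c = c')
    (hoff : ∀ b y, ¬ inc y b → ∃ g : G, g • b = b ∧ g • y ≠ y)
    {b₀ : B} (hb : axial inc G b₀ ≠ ⊥) :
    ∃ (m : ℕ) (F : Type) (_ : Field F) (_ : Fintype F), 2 ≤ m ∧
      Nat.card B = (Fintype.card F ^ (m + 1) - 1) / (Fintype.card F - 1) ∧ ∃ L : Subgroup G,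
      L.Normal ∧ Nonempty (L ≃* Matrix.ProjectiveSpecialLinearGroup (Fin (m + 1)) F) ∧
      Subgroup.centralizer (L : Set G) = ⊥ := by
  classical
  have hone : ∀ g : G, (∀ p : P, g • p = p) → g = 1 := fun g h =>
    eq_of_smul_eq_smul (α := P) fun p => by rw [h, one_smul]
  have : FaithfulSMul G B := ⟨fun {g g'} h => by
    rw [← inv_mul_eq_one]
    have h1 := D.card_fix hinv (g⁻¹ * g')
    rw [filter_true_of_mem (s := (univ : Finset B)) fun b _ => by
      rw [mul_smul, ← h, inv_smul_smul], card_univ, ← D.card_eq, ← card_univ,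
      card_filter_eq_iff] at h1
    exact hone _ fun p => h1 p (mem_univ _)⟩
  have hl : 0 < lam := by
    obtain ⟨p, hp, q, hq, hpq⟩ := one_lt_card.mp (hk.trans (D.blk b₀).ge)
    rw [← D.pp hpq]
    exact card_pos.mpr ⟨b₀, by simp_all⟩
  obtain ⟨b, hF⟩ : ∃ b, H7.fittingIn (axial inc G b) ≠ ⊥ := by
    by_cases hsr : ∀ b, ∀ g ∈ axial inc G b, ∀ y, ¬ inc y b → g • y = y → g = 1
    · obtain ⟨x, hx⟩ : ∃ x, ¬ inc x b₀ := by
        by_contra h
        push Not at h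
        exact hb ((Subgroup.eq_bot_iff_forall _).mpr fun g hg => hone g fun p => hg p (h p))
      obtain ⟨Z, h1, h3, h4, h5⟩ := D.exists_normal_abelian_of_semiregular hinv hk h2 hsr b₀ hb hx
      refine ⟨b₀, fun e => h3 (le_bot_iff.mp (e ▸ H7.NormalIn.le_fittingIn ⟨h1, fun n hn => ?_⟩ ?_))⟩
      · exact Subgroup.mem_normalizer_iff.mpr fun q =>
          ⟨h5 n hn q, fun hq => by simpa [mul_assoc] using h5 _ (inv_mem hn) _ hq⟩
      · let _ : CommGroup Z :=
          { (inferInstance : Group Z) with mul_comm := fun a b => Subtype.ext (h4 a a.2 b b.2) }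
        infer_instance
    push Not at hsr
    obtain ⟨b, g, hg, y, hy, hgy, hg1⟩ := hsr
    let K := axial inc G b
    let H := (stabilizer G y).subgroupOf K
    have hy' : ∀ a : G, a • b = b → ¬ inc (a • y) b := fun a ha h => hy (by rwa [← ha, hinv] at h)
    have hTI : ∀ a ∉ H, ∀ x ∈ H, a⁻¹ * x * a ∈ H → x = 1 := fun a ha x hx h =>
      Subtype.ext (hone _ (D.fix_all hinv hl x.2 hy (hy' a (D.axial_fix hinv a.2)) (Ne.symm ha) hx
        (by rw [← mul_smul, ← inv_smul_eq_iff, ← mul_smul, ← mul_assoc]; exact h)))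
    obtain ⟨K₀, hn, hK₀⟩ := H3.exists_frobeniusKernel_of_TI H hTI
    have h1 : H ≠ ⊤ := fun e => by
      obtain ⟨a, ha, hay⟩ := hoff b y hy
      have h1 : a⁻¹ * g * a⁻¹⁻¹ ∈ K := by
        simpa only [inv_smul_eq_iff.mpr ha.symm] using axial_conj hinv a⁻¹ hg
      have h3 : (a⁻¹ * g * a⁻¹⁻¹) • y = y := e.ge (Subgroup.mem_top (⟨_, h1⟩ : K))
      rw [inv_inv, mul_smul, mul_smul, inv_smul_eq_iff] at h3
      exact hg1 (hone _ (D.fix_all hinv hl hg hy (hy' a ha) hay.symm hgy h3))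
    have h3 : Group.IsNilpotent K₀ := H9.isNilpotent_of_frobenius (H := H)
      (fun e => hg1 (congrArg Subtype.val (Subgroup.mem_bot.mp (e.le (show (⟨g, hg⟩ : K) ∈ H from hgy)))))
      (by rw [Subgroup.normalizer_eq_top]; exact le_top) fun h hh h1 a ha hc =>
        H3.eq_one_of_commute_frobKer hTI hK₀ (fun e => h1 (Subgroup.mem_bot.mp
          ((H3.frobKer_inf_eq_bot hK₀).le ⟨e, hh⟩))) ha hc.eq.symm
    refine ⟨b, fun e => H3.frobKer_ne_bot h1 hK₀ ?_⟩
    rw [← Subgroup.map_eq_bot_iff_of_injective _ K.subtype_injective, ← le_bot_iff, ← e]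
    exact (H7.NormalIn.map_subtype hn).le_fittingIn (H7.isNilpotent_map h3 _)
  obtain ⟨V, h1, h3, h4, h5⟩ := exists_abelian_of_fittingIn (S := stabilizer G b)
    ⟨fun g hg => D.axial_fix hinv hg, fun g hg => by
      have key : ∀ g ∈ stabilizer G b, ∀ q ∈ axial inc G b, g * q * g⁻¹ ∈ axial inc G b :=
        fun g hg q hq => by simpa only [mem_stabilizer_iff.mp hg] using axial_conj hinv g hq
      exact Subgroup.mem_normalizer_iff.mpr fun q =>
        ⟨key g hg q, fun hq => by simpa [mul_assoc] using key _ (inv_mem hg) _ hq⟩⟩ hF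
  refine onan h2 b V (fun a ha => D.axial_fix hinv (h1 ha)) h4 h5 ?_
  obtain ⟨⟨n, hn⟩, hn1⟩ := Subgroup.ne_bot_iff_exists_ne_one.mp h3
  have h6 : 1 < #{c : B | n • c = c} := by
    rw [← D.card_fix hinv]
    refine lt_of_lt_of_le (hk.trans (D.blk b).ge) (card_le_card fun p hp => ?_)
    rw [mem_filter_univ] at hp ⊢
    exact h1 hn p hp
  obtain ⟨c, hc, hcb⟩ := exists_mem_ne h6 b
  exact ⟨n, hn, fun e => hn1 (Subtype.ext e), c, hcb, (mem_filter.mp hc).2⟩

end Cfsg.Agent.H8
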