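import Cfsg.Agent.H8.Ito1

/-!
Finite projective planes: perspectivities and involutions.
-/

set_option autoImplicit false

namespace Cfsg.Agent.H8

open MulAction Finset

theorem exists_fixed_of_odd {G X : Type*} [Group G] [MulAction G X] {σ : G} (hσ : σ * σ = 1)
    {S : Finset X} (hS : ∀ x ∈ S, σ • x ∈ S) (h : Odd #S) : ∃ x ∈ S, σ • x = x := by
  by_contra hne
  push Not at hne
  have h1 := sum_involution (s := S) (f := fun _ => (1 : ZMod 2)) (fun x _ => σ • x)
    (fun _ _ => by decide) (fun x hx _ => hne x hx) hS fun x _ => by rw [← mul_smul, hσ, one_smul]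
  rw [sum_const, nsmul_eq_mul, mul_one, ZMod.natCast_eq_zero_iff_even] at h1
  exact Nat.not_even_iff_odd.mpr h h1

/-- The dual incidence relation. -/
abbrev du {P L : Type*} (inc : P → L → Prop) : L → P → Prop := fun l p => inc p l

variable {P L : Type*} [Fintype P] [Fintype L] {inc : P → L → Prop} [∀ p l, Decidable (inc p l)]
  {n : ℕ} {G : Type*} [Group G] [MulAction G P] [MulAction G L]

theorem SD.congr {P' L' : Type*} [Fintype P'] [Fintype L'] {inc' : P' → L' → Prop}
    [∀ p l, Decidable (inc' p l)] {k lam : ℕ} (D : SD inc k lam) (e : P ≃ P') (f : L ≃ L')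
    (h : ∀ p l, inc' (e p) (f l) ↔ inc p l) : SD inc' k lam := by
  refine SD.of_pp (fun l => ?_) (fun p => ?_) (fun {p q} hpq => ?_) D.lt
    (by rw [← Fintype.card_congr e, ← Fintype.card_congr f, D.card_eq])
  · obtain ⟨l, rfl⟩ := f.surjective l
    rw [← D.blk l]
    exact (card_bijective _ e.bijective fun p => by simp [h]).symm
  · obtain ⟨p, rfl⟩ := e.surjective p
    rw [← D.pt p]
    exact (card_bijective _ f.bijective fun p => by simp [h]).symm
  · obtain ⟨p, rfl⟩ := e.surjective p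
    obtain ⟨q, rfl⟩ := e.surjective q
    rw [← D.pp (e.injective.ne_iff.mp hpq)]
    exact (card_bijective _ f.bijective fun p => by simp [h]).symm

variable (G inc n) in
/-- A finite projective plane of order `n` with a group of collineations. -/
structure Pl : Prop where
  sd : SD inc (n + 1) 1
  two : 2 ≤ n
  inv : ∀ (g : G) p l, inc (g • p) (g • l) ↔ inc p l
  faith : ∀ g : G, (∀ p : P, g • p = p) → g = 1

namespace Pl

variable (D : Pl inc n G)
include D

theorem dual : Pl (du inc) n G := ⟨D.sd.dual, D.two, fun g l p => D.inv g p l, fun g h => by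
  classical
  have h1 := D.sd.card_fix D.inv g
  rw [filter_true_of_mem (s := (univ : Finset L)) fun b _ => h b, card_univ, ← D.sd.card_eq,
    ← card_univ, card_filter_eq_iff] at h1
  exact D.faith _ fun p => h1 p (mem_univ _)⟩

theorem exists_line (p q : P) : ∃ l, inc p l ∧ inc q l := by
  by_cases h : p = q
  · obtain ⟨l, hl⟩ := card_pos.mp (n.succ_pos.trans_eq (D.sd.pt p).symm)
    exact ⟨l, (mem_filter.mp hl).2, h ▸ (mem_filter.mp hl).2⟩
  · obtain ⟨l, hl⟩ := card_pos.mp (one_pos.trans_eq (D.sd.pp h).symm)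
    exact ⟨l, (mem_filter.mp hl).2⟩

theorem line_eq {p q : P} {l m : L} (h : p ≠ q) (h1 : inc p l) (h2 : inc q l) (h3 : inc p m)
    (h4 : inc q m) : l = m :=
  card_le_one.mp (D.sd.pp h).le l (by simp [h1, h2]) m (by simp [h3, h4])

theorem exists_pt (l m : L) : ∃ p, inc p l ∧ inc p m := D.dual.exists_line l m

theorem pt_eq {p q : P} {l m : L} (h : l ≠ m) (h1 : inc p l) (h2 : inc p m) (h3 : inc q l)
    (h4 : inc q m) : p = q := D.dual.line_eq h h1 h2 h3 h4

theorem exists_on (l : L) (x y : P) : ∃ p, inc p l ∧ p ≠ x ∧ p ≠ y := by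
  classical
  obtain ⟨p, h1, h2⟩ := exists_mem_notMem_of_card_lt_card (s := {x, y}) (t := {p | inc p l})
    (card_le_two.trans_lt (by rw [D.sd.blk]; have := D.two; omega))
  exact ⟨p, by simpa using h1, by simpa using h2⟩

theorem exists_through (x : P) (l m : L) : ∃ h, inc x h ∧ h ≠ l ∧ h ≠ m := D.dual.exists_on x l m

theorem card_pt (p : P) : Fintype.card P = n ^ 2 + n + 1 := by
  classical
  have := sd_param D.sd.blk D.sd.pt D.sd.pp p
  zify
  push_cast at this
  linear_combination -this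

theorem card_off (a : L) : #{p | ¬ inc p a} = n ^ 2 := by
  obtain ⟨p, -⟩ := D.exists_pt a a
  have h4 := card_filter_add_card_filter_not (s := univ) (fun p => inc p a)
  rw [D.sd.blk, card_univ, D.card_pt p] at h4
  omega

theorem inc_smul {g : G} {p : P} {l : L} (h : inc p l) (hl : g • l = l) : inc (g • p) l := by
  rw [← hl, D.inv]; exact h

theorem fix_line {g : G} {p q : P} {l : L} (h : p ≠ q) (h1 : inc p l) (h2 : inc q l)
    (h3 : inc (g • p) l) (h4 : inc (g • q) l) : g • l = l :=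
  D.line_eq ((MulAction.injective g).ne h) ((D.inv g p l).mpr h1) ((D.inv g q l).mpr h2) h3 h4

theorem fix_pt {g : G} {p : P} {l m : L} (h : l ≠ m) (h1 : inc p l) (h2 : inc p m)
    (h3 : g • l = l) (h4 : g • m = m) : g • p = p :=
  D.pt_eq h (D.inc_smul h1 h3) (D.inc_smul h2 h4) h1 h2

theorem eq_one_of_two_axes {g : G} {a b : L} (h : a ≠ b) (ha : g ∈ axial inc G a)
    (hb : g ∈ axial inc G b) : g = 1 := by
  obtain ⟨e, h1, h2⟩ := D.exists_pt a b
  obtain ⟨x, h3, h4, -⟩ := D.exists_on b e e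
  obtain ⟨y, h5, h6, h7⟩ := D.exists_on b e x
  exact D.faith g (D.sd.fix_all D.inv one_pos ha (fun h' => h4 (D.pt_eq h h' h3 h1 h2))
    (fun h' => h6 (D.pt_eq h h' h5 h1 h2)) h7.symm (hb x h3) (hb y h5))

theorem eq_one_of_two_centers {g : G} {c d : P} (h : c ≠ d) (hc : g ∈ axial (du inc) G c)
    (hd : g ∈ axial (du inc) G d) : g = 1 := D.dual.eq_one_of_two_axes h hc hd

theorem exists_center {g : G} {a : L} (ha : g ∈ axial inc G a) : ∃ c, g ∈ axial (du inc) G c := by
  by_cases h : ∃ x, ¬ inc x a ∧ g • x = x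
  · obtain ⟨x, h1, h2⟩ := h
    exact ⟨x, fun l hl => D.sd.fix_block D.inv ha h1 h2 hl⟩
  push Not at h
  have h1 : ∀ x, ¬ inc x a → ∃ l, inc x l ∧ g • l = l := fun x hx => by
    obtain ⟨l, h1, h2⟩ := D.exists_line x (g • x)
    obtain ⟨c, h3, h4⟩ := D.exists_pt l a
    exact ⟨l, h1, D.fix_line (fun e : x = c => hx (e ▸ h4)) h1 h3 h2 (by rwa [ha c h4])⟩
  obtain ⟨e, he, -⟩ := D.exists_pt a a
  obtain ⟨m, h2, h3, -⟩ := D.exists_through e a a
  obtain ⟨x, h4, h5, -⟩ := D.exists_on m e e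
  have hx : ¬ inc x a := fun h' => h5 (D.pt_eq h3 h4 h' h2 he)
  obtain ⟨l, h6, h7⟩ := h1 x hx
  obtain ⟨c, h8, h9⟩ := D.exists_pt l a
  refine ⟨c, fun k hk => ?_⟩
  by_cases hka : k = a
  · rw [hka]; exact D.sd.axial_fix D.inv ha
  obtain ⟨y, h10, h11, -⟩ := D.exists_on k c c
  have hy : ¬ inc y a := fun h' => h11 (D.pt_eq hka h10 h' hk h9)
  obtain ⟨l', h12, h13⟩ := h1 y hy
  by_cases hl : l' = l
  · rw [D.line_eq h11 h10 hk h12 (hl ▸ h8), h13]
  obtain ⟨z, h14, h15⟩ := D.exists_pt l' l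
  have hz : inc z a := by_contra fun h' => h z h' (D.fix_pt hl h14 h15 h13 h7)
  rw [D.pt_eq (fun e : l = a => hx (e ▸ h6)) h15 hz h8 h9] at h14
  rw [D.line_eq h11 h10 hk h12 h14, h13]

theorem exists_axis {g : G} {c : P} (hc : g ∈ axial (du inc) G c) : ∃ a, g ∈ axial inc G a :=
  D.dual.exists_center hc

theorem fix_cases {g : G} {c x : P} {a : L} (hg : g ≠ 1) (hc : g ∈ axial (du inc) G c)
    (ha : g ∈ axial inc G a) (hx : g • x = x) : inc x a ∨ x = c := by
  by_contra h
  push Not at h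
  exact hg (D.eq_one_of_two_centers h.2 (fun l hl => D.sd.fix_block D.inv ha h.1 hx hl) hc)

theorem fix_cases' {g : G} {c : P} {a l : L} (hg : g ≠ 1) (hc : g ∈ axial (du inc) G c)
    (ha : g ∈ axial inc G a) (hl : g • l = l) : inc c l ∨ l = a := D.dual.fix_cases hg ha hc hl

theorem baer_aux [DecidableEq P] [DecidableEq L] {g : G} (hg : g * g = 1) {x : P} {h : L}
    (hx : g • x = x) (hxh : inc x h) (hh : g • h ≠ h) :
    #{l : L | g • l = l} = n + #{l | inc x l ∧ g • l = l} := by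
  have h1 := card_filter_add_card_filter_not (s := univ.filter fun l : L => g • l = l)
    (fun l => inc x l)
  rw [filter_filter, filter_filter] at h1
  have h2 : #{l : L | g • l = l ∧ ¬ inc x l} = #((univ.filter fun p => inc p h).erase x) := by
    choose f h2 h3 using D.exists_pt h
    refine card_bij (fun l _ => f l) (fun l hl => ?_) (fun l hl m hm e => ?_) fun p hp => ?_
    · rw [mem_filter_univ] at hl
      simpa [h2] using fun e : f l = x => hl.2 (e ▸ h3 l)
    · rw [mem_filter_univ] at hl hm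
      by_contra hne
      exact hh (D.fix_line (fun e : x = f l => hl.2 (e ▸ h3 l)) hxh (h2 l) (by rwa [hx])
        (by rw [D.fix_pt hne (h3 l) (e ▸ h3 m) hl.1 hm.1]; exact h2 l))
    · simp only [mem_erase, mem_filter_univ] at hp
      have h4 : g • p ≠ p := fun e => hh (D.fix_line hp.1 hp.2 hxh (by rw [e]; exact hp.2) (by rwa [hx]))
      obtain ⟨l, h5, h6⟩ := D.exists_line p (g • p)
      have h7 : g • l = l := D.fix_line h4.symm h5 h6 h6 (by rwa [← mul_smul, hg, one_smul])
      have h8 : h ≠ l := fun e => hh (e ▸ h7)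
      exact ⟨l, by simpa [h7] using fun h' => hp.1 (D.pt_eq h8 hp.2 h5 hxh h'),
        D.pt_eq h8 (h2 l) (h3 l) hp.2 h5⟩
  rw [card_erase_of_mem (by simpa using hxh), D.sd.blk] at h2
  rw [← h1, h2, filter_congr fun l _ => and_comm]
  omega

/-- Baer's theorem on involutions. -/
theorem baer [DecidableEq P] [DecidableEq L] {g : G} (hg : g * g = 1)
    (h : ∀ a, g ∉ axial inc G a) (p : P) : ∃ m, m ^ 2 = n ∧
      SD (fun (p : {p : P // g • p = p}) (l : {l : L // g • l = l}) => inc p l) (m + 1) 1 := by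
  have h' : ∀ c, g ∉ axial (du inc) G c := fun c hc => (D.exists_axis hc).elim h
  have h1 : ∀ x : {p : P // g • p = p},
      #{l : {l : L // g • l = l} | inc x l} = #{l : L | g • l = l} - n := fun x => by
    obtain ⟨l, h1⟩ := not_forall.mp (h' x)
    obtain ⟨h1, h2⟩ := Classical.not_imp.mp h1
    rw [D.baer_aux hg x.2 h1 h2, Nat.add_sub_cancel_left]
    exact card_bij (fun l _ => l.1) (fun l hl => by simpa [l.2] using hl)
      (fun _ _ _ _ e => Subtype.ext e) fun l hl =>
        ⟨⟨l, (mem_filter.mp hl).2.2⟩, mem_filter.mpr ⟨mem_univ _, (mem_filter.mp hl).2.1⟩, rfl⟩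
  have h2 : ∀ x : {l : L // g • l = l},
      #{p : {p : P // g • p = p} | inc p x} = #{l : L | g • l = l} - n := fun x => by
    obtain ⟨l, h1⟩ := not_forall.mp (h x)
    obtain ⟨h1, h2⟩ := Classical.not_imp.mp h1
    rw [← D.sd.card_fix D.inv, D.dual.baer_aux hg x.2 h1 h2, Nat.add_sub_cancel_left]
    exact card_bij (fun l _ => l.1) (fun l hl => by simpa [l.2] using hl)
      (fun _ _ _ _ e => Subtype.ext e) fun l hl =>
        ⟨⟨l, (mem_filter.mp hl).2.2⟩, mem_filter.mpr ⟨mem_univ _, (mem_filter.mp hl).2.1⟩, rfl⟩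
  have h3 : ∀ {x y : {p : P // g • p = p}}, x ≠ y →
      #{l : {l : L // g • l = l} | inc x l ∧ inc y l} = 1 := fun {x y} hxy => by
    obtain ⟨l, h3, h4⟩ := D.exists_line x y
    have h5 := Subtype.val_injective.ne hxy
    exact card_eq_one.mpr ⟨⟨l, D.fix_line h5 h3 h4 (by rwa [x.2]) (by rwa [y.2])⟩,
      eq_singleton_iff_unique_mem.mpr ⟨by simp [h3, h4], fun m hm => Subtype.ext
        (D.line_eq h5 (mem_filter.mp hm).2.1 (mem_filter.mp hm).2.2 h3 h4)⟩⟩
  obtain ⟨l, h4⟩ := not_forall.mp (h' p)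
  obtain ⟨-, h4⟩ := Classical.not_imp.mp h4
  obtain ⟨x, h5, h6⟩ := D.exists_pt l (g • l)
  have h7 : g • x = x := D.pt_eq (Ne.symm h4) (by rwa [← D.inv g, ← mul_smul, hg, one_smul])
    ((D.inv g _ _).mpr h5) h5 h6
  have h8 := sd_param h2 h1 h3 ⟨x, h7⟩
  have h9 := D.baer_aux hg h7 h5 h4
  have h10 := D.two
  rw [Fintype.card_subtype, D.sd.card_fix D.inv] at h8
  obtain ⟨k, hk⟩ : ∃ k, #{l : L | g • l = l} = n + k := ⟨_, h9⟩
  rw [hk, Nat.add_sub_cancel_left] at h1 h2 h8
  push_cast at h8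
  obtain _ | m := k
  · simp at h8; omega
  have h11 : m ^ 2 = n := by
    zify
    push_cast at h8
    linear_combination h8
  refine ⟨m, h11, SD.of_pp h2 h1 h3 ?_ ?_⟩
  · obtain _ | m := m
    · omega
    · omega
  · rw [Fintype.card_subtype, Fintype.card_subtype, D.sd.card_fix D.inv]

end Pl

end Cfsg.Agent.H8
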