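import Cfsg.Agent.H8.Plane1
import Cfsg.Agent.H3.GroupUtil

/-!
Finite projective planes of odd order with many involutory homologies have prime power order.
-/

set_option autoImplicit false

namespace Cfsg.Agent.H8

open MulAction Finset

variable {P L : Type*} {inc : P → L → Prop} {n : ℕ} {G : Type*} [Group G] [MulAction G P]
  [MulAction G L]

variable (inc) in
/-- Involutory perspectivities. -/
def IH (σ : G) (c : P) (a : L) : Prop :=
  σ ≠ 1 ∧ σ * σ = 1 ∧ σ ∈ axial (du inc) G c ∧ σ ∈ axial inc G a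

theorem IH.dual {σ : G} {c : P} {a : L} (h : IH inc σ c a) : IH (du inc) σ a c :=
  ⟨h.1, h.2.1, h.2.2.2, h.2.2.1⟩

variable (inc G) in
/-- Perspectivities with given centre and axis. -/
abbrev persp (c : P) (a : L) : Subgroup G := axial (du inc) G c ⊓ axial inc G a

variable [Fintype P] [Fintype L] [∀ p l, Decidable (inc p l)]

namespace Pl

variable (D : Pl inc n G)
include D

theorem IH_conj {σ : G} {c : P} {a : L} (h : IH inc σ c a) (g : G) :
    IH inc (g * σ * g⁻¹) (g • c) (g • a) :=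
  ⟨by simpa using h.1, by rw [conj_mul, h.2.1, mul_one, mul_inv_cancel],
    axial_conj D.dual.inv g h.2.2.1, axial_conj D.inv g h.2.2.2⟩

theorem center_fix {g : G} {c : P} (h : g ∈ axial (du inc) G c) : g • c = c :=
  D.dual.sd.axial_fix D.dual.inv h

theorem axis_fix {g : G} {a : L} (h : g ∈ axial inc G a) : g • a = a := D.sd.axial_fix D.inv h

theorem center_eq {g : G} {c d : P} (hg : g ≠ 1) (hc : g ∈ axial (du inc) G c)
    (hd : g ∈ axial (du inc) G d) : c = d :=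
  by_contra fun h => hg (D.eq_one_of_two_centers h hc hd)

theorem axis_eq {g : G} {a b : L} (hg : g ≠ 1) (ha : g ∈ axial inc G a)
    (hb : g ∈ axial inc G b) : a = b := by_contra fun h => hg (D.eq_one_of_two_axes h ha hb)

theorem IH_not_inc (hn : Odd n) {σ : G} {c : P} {a : L} (h : IH inc σ c a) : ¬ inc c a := by
  obtain ⟨x, h1, h2⟩ := exists_fixed_of_odd h.2.1 (S := {p | ¬ inc p a}) (fun x hx => by
    rw [mem_filter_univ] at hx ⊢
    rwa [← D.axis_fix h.2.2.2, D.inv]) (D.card_off a ▸ hn.pow)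
  rw [mem_filter_univ] at h1
  exact (D.fix_cases h.1 h.2.2.1 h.2.2.2 h2).resolve_left h1 ▸ h1

/-- The elations with a given axis. -/
def tr (a : L) : Subgroup G where
  carrier := {g | g ∈ axial inc G a ∧ ∃ c, inc c a ∧ g ∈ axial (du inc) G c}
  one_mem' := ⟨one_mem _, (D.exists_pt a a).imp fun _ h => ⟨h.1, one_mem _⟩⟩
  inv_mem' := fun ⟨h, c, h1, h2⟩ => ⟨inv_mem h, c, h1, inv_mem h2⟩
  mul_mem' := by
    rintro g g' ⟨h, c, h1, h2⟩ ⟨h', c', h1', h2'⟩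
    refine ⟨mul_mem h h', ?_⟩
    obtain ⟨e, he⟩ := D.exists_center (mul_mem h h')
    by_cases h3 : inc e a
    · exact ⟨e, h3, he⟩
    by_cases h4 : g' = 1
    · exact ⟨c, h1, by rwa [h4, mul_one]⟩
    have h5 : g' • e ≠ e := fun h5 => (D.fix_cases h4 h2' h' h5).elim h3 fun h6 => h3 (h6 ▸ h1')
    obtain ⟨l, h6, h7⟩ := D.exists_line e c
    obtain ⟨l', h6', h7'⟩ := D.exists_line e c'
    have h8 : g' • e = g⁻¹ • e := by rw [eq_inv_smul_iff, ← mul_smul, D.center_fix he]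
    obtain rfl : l = l' := D.line_eq h5 (h8 ▸ D.inc_smul h6 (inv_mem h2 l h7)) h6
      (D.inc_smul h6' (h2' l' h7')) h6'
    obtain rfl : c = c' := D.pt_eq (fun e : l = a => h3 (e ▸ h6)) h7 h1 h7' h1'
    exact ⟨c, h1, mul_mem h2 h2'⟩

theorem tr_eq_one {a : L} {τ : G} (h : τ ∈ D.tr a) {x : P} (hx : ¬ inc x a) (h1 : τ • x = x) :
    τ = 1 := by
  obtain ⟨h, c, h2, h3⟩ := h
  by_contra h4
  exact (D.fix_cases h4 h3 h h1).elim hx fun e => hx (e ▸ h2)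

theorem persp_le {c : P} {a : L} (h : inc c a) : persp inc G c a ≤ D.tr a :=
  fun _ hg => ⟨hg.2, c, h, hg.1⟩

variable [Finite G] (hn : Odd n)
include hn

theorem odd_card_tr (a : L) : Odd (Nat.card (D.tr a)) := by
  by_contra h
  obtain ⟨x, ⟨h1, c, h2, h3⟩, h4⟩ := H3.exists_orderOf_eq_mem Nat.prime_two
    (Nat.not_odd_iff_even.mp h).two_dvd
  exact D.IH_not_inc hn ⟨H3.ne_one_of_orderOf_prime (h4 ▸ Nat.prime_two),
    by rw [← sq, ← h4, pow_orderOf_eq_one], h3, h1⟩ h2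

theorem andre {σ σ' : G} {c c' : P} {a : L} (h : IH inc σ c a) (h' : IH inc σ' c' a) :
    ∃ τ ∈ D.tr a, τ • c' = c := by
  by_cases hc : c' = c
  · exact ⟨1, one_mem _, by rw [hc, one_smul]⟩
  have hi : σ⁻¹ = σ := inv_eq_of_mul_eq_one_right h.2.1
  have hi' : σ'⁻¹ = σ' := inv_eq_of_mul_eq_one_right h'.2.1
  have h1 : σ * σ' ≠ 1 := fun e => hc (D.center_eq h'.1 h'.2.2.1
    (by rw [← hi', inv_eq_of_mul_eq_one_left e]; exact h.2.2.1))
  have h2 : σ * σ' ∈ D.tr a := by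
    obtain ⟨f, hf⟩ := D.exists_center (mul_mem h.2.2.2 h'.2.2.2)
    refine ⟨mul_mem h.2.2.2 h'.2.2.2, f, by_contra fun h3 => hc ?_, hf⟩
    have h4 : σ • f = f := D.center_eq h1 (by
      rw [← inv_mem_iff, mul_inv_rev, hi, hi', show σ' * σ = σ * (σ * σ') * σ⁻¹ by
        rw [← mul_assoc, h.2.1, one_mul, hi]]
      exact axial_conj D.dual.inv σ hf) hf
    have h5 : σ' • f = f := by
      rw [← smul_left_cancel_iff σ, ← mul_smul, D.center_fix hf, h4]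
    rw [← (D.fix_cases h.1 h.2.2.1 h.2.2.2 h4).resolve_left h3,
      ← (D.fix_cases h'.1 h'.2.2.1 h'.2.2.2 h5).resolve_left h3]
  obtain ⟨k, hk⟩ := (D.odd_card_tr hn a).of_dvd_nat ((D.tr a).orderOf_dvd_natCard h2)
  refine ⟨(σ * σ') ^ (k + 1), pow_mem h2 _, D.center_eq h.1 ?_ h.2.2.1⟩
  have h3 : σ' * ((σ * σ') ^ (k + 1))⁻¹ = (σ * σ') ^ (k + 1) * σ' := by
    rw [← inv_pow, mul_inv_rev, hi, hi']
    exact (SemiconjBy.pow_right (show σ' * (σ' * σ) = σ * σ' * σ' by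
      rw [← mul_assoc, mul_assoc σ, h'.2.1, one_mul, mul_one]) _)
  have h4 := (D.IH_conj h' ((σ * σ') ^ (k + 1))).2.2.1
  rwa [mul_assoc, h3, ← mul_assoc, ← pow_add, show k + 1 + (k + 1) = 2 * k + 1 + 1 by ring, ← hk,
    pow_succ _ (orderOf _), pow_orderOf_eq_one, one_mul, mul_assoc, h'.2.1, mul_one] at h4

omit [Finite G] in
theorem exists_IH_of_mutual {σ σ' : G} {c c' : P} {a a' l : L} (h : IH inc σ c a)
    (h' : IH inc σ' c' a') (hc : inc c a') (hc' : inc c' a) (h1 : inc c l) (h1' : inc c' l) :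
    ∃ ρ : G, ∃ e, IH inc ρ e l := by
  classical
  have hca := D.IH_not_inc hn h
  have hca' := D.IH_not_inc hn h'
  have haa : a ≠ a' := fun e => hca (e ▸ hc)
  have h2 : σ * σ' = σ' * σ := by
    rw [← mul_inv_eq_one, mul_inv_rev]
    refine D.eq_one_of_two_axes haa ?_ ?_
    · have := axial_conj D.inv σ' (inv_mem h.2.2.2)
      rw [h'.2.2.1 a hc'] at this
      simpa only [mul_assoc] using mul_mem h.2.2.2 this
    · have := axial_conj D.inv σ h'.2.2.2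
      rw [h.2.2.1 a' hc] at this
      simpa only [mul_assoc] using mul_mem this (inv_mem h'.2.2.2)
  have h3 : σ * σ' * (σ * σ') = 1 := by
    rw [mul_assoc, ← mul_assoc σ', ← h2, mul_assoc σ, h'.2.1, mul_one, h.2.1]
  have h4 : ∀ p, inc p a' → (σ * σ') • p = σ • p := fun p hp => by rw [mul_smul, h'.2.2.2 p hp]
  have h5 : ∀ p, inc p a → (σ * σ') • p = σ' • p := fun p hp => by rw [h2, mul_smul, h.2.2.2 p hp]
  have h6 : σ * σ' ∉ axial inc G a' := fun e => haa (D.axis_eq h.1 h.2.2.2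
    fun p hp => (h4 p hp).symm.trans (e p hp))
  have h7 : σ * σ' ∉ axial inc G a := fun e => haa (D.axis_eq h'.1
    (fun p hp => (h5 p hp).symm.trans (e p hp)) h'.2.2.2)
  have h8 : σ * σ' ≠ 1 := fun e => h6 (e ▸ one_mem _)
  obtain ⟨e, he, he'⟩ := D.exists_pt a a'
  obtain ⟨b, hb⟩ : ∃ b, σ * σ' ∈ axial inc G b := by
    by_contra hne
    push Not at hne
    obtain ⟨m, h9, h10⟩ := D.baer h3 hne c
    have h11 := h10.blk ⟨a', by rw [mul_smul, D.axis_fix h'.2.2.2, h.2.2.1 a' hc]⟩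
    have h12 := card_le_card_of_injOn (s := {p : {p : P // (σ * σ') • p = p} | inc p a'})
      (t := {c, e}) Subtype.val (fun p hp => by
        have hp := (mem_filter.mp hp).2
        rcases D.fix_cases h.1 h.2.2.1 h.2.2.2 ((h4 p hp).symm.trans p.2) with h | h
        · simp [D.pt_eq haa h hp he he']
        · simp [h]) Subtype.val_injective.injOn
    have h13 := D.two
    have h14 : m ≤ 1 := by have := (h11.ge.trans h12).trans card_le_two; omega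
    nlinarith
  obtain ⟨f, hf⟩ := D.exists_center hb
  have h9 := D.fix_cases h8 hf hb ((h4 c hc).trans (D.center_fix h.2.2.1))
  have h10 := D.fix_cases h8 hf hb ((h5 c' hc').trans (D.center_fix h'.2.2.1))
  have h11 := D.fix_cases h8 hf hb ((h4 e he').trans (h.2.2.2 e he))
  have hce : c ≠ e := fun h => hca (h ▸ he)
  have hce' : c' ≠ e := fun h => hca' (h ▸ he')
  have hcc : c ≠ c' := fun h => hca (h ▸ hc')
  rcases h11 with h11 | rfl
  · exact absurd ((h9.resolve_left fun h => h6 (D.line_eq hce h h11 hc he' ▸ hb)).trans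
      (h10.resolve_left fun h => h7 (D.line_eq hce' h h11 hc' he ▸ hb)).symm) hcc
  · exact ⟨_, e, h8, h3, hf, D.line_eq hcc (h9.resolve_right hce) (h10.resolve_right hce') h1 h1' ▸ hb⟩

theorem exists_IH_axis (h3 : 3 < n)
    (h : ∀ x y : P, x ≠ y → ∃ σ : G, ∃ c a, IH inc σ c a ∧ σ • x = x ∧ σ • y = y) (l : L) :
    ∃ ρ : G, ∃ e, IH inc ρ e l := by
  classical
  by_contra hne
  let r : P → P → Prop := fun x y => y ≠ x ∧ ∃ σ : G, ∃ a, IH inc σ x a ∧ inc y a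
  let S : Finset P := {p | inc p l}
  have hS : ∀ {p}, p ∈ S ↔ inc p l := by simp [S]
  have h1 : ∀ x ∈ S, n ≤ #(S.filter (r x)) + #(S.filter (r · x)) := fun x hx => by
    refine le_trans ?_ (card_union_le _ _)
    rw [← Nat.add_sub_cancel (n := n) (m := 1), ← D.sd.blk l, ← card_erase_of_mem hx]
    refine card_le_card fun y hy => ?_
    obtain ⟨h1, h2⟩ := mem_erase.mp hy
    obtain ⟨σ, c, a, h4, h5, h6⟩ := h x y h1.symm
    rw [mem_union, mem_filter (s := S), mem_filter (s := S)]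
    rcases D.fix_cases h4.1 h4.2.2.1 h4.2.2.2 h5 with h7 | rfl <;>
      rcases D.fix_cases h4.1 h4.2.2.1 h4.2.2.2 h6 with h8 | rfl
    · exact absurd ⟨σ, c, D.line_eq h1 h8 h7 (hS.mp h2) (hS.mp hx) ▸ h4⟩ hne
    · exact Or.inr ⟨h2, h1.symm, σ, a, h4, h7⟩
    · exact Or.inl ⟨h2, h1, σ, a, h4, h8⟩
    · exact absurd rfl h1
  have h2 : ∀ x ∈ S, #(S.filter (r x)) = 0 ∨ #(S.filter (r x)) ∣ n := fun x hx => by
    rcases (S.filter (r x)).eq_empty_or_nonempty with e | ⟨y, hy⟩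
    · exact Or.inl (card_eq_zero.mpr e)
    obtain ⟨h4, h5, σ, a, h6, h7⟩ := mem_filter.mp hy
    have hT : ∀ τ ∈ D.dual.tr x, ∀ z ∈ S.erase x, τ • z ∈ S.erase x := fun τ hτ z hz =>
      mem_erase.mpr ⟨fun e => (mem_erase.mp hz).1 (MulAction.injective τ
        (e.trans (D.center_fix hτ.1).symm)), hS.mpr (D.inc_smul (hS.mp (mem_erase.mp hz).2)
          (hτ.1 l (hS.mp hx)))⟩
    have h8 : orbit (D.dual.tr x) y = S.filter (r x) := by
      refine Set.Subset.antisymm ?_ fun z hz => ?_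
      · rintro _ ⟨τ, rfl⟩
        obtain ⟨h8, h9⟩ := mem_erase.mp (hT τ τ.2 y (mem_erase.mpr ⟨h5, h4⟩))
        exact mem_filter.mpr ⟨h9, h8, _, _, D.center_fix τ.2.1 ▸ D.IH_conj h6 τ, (D.inv _ _ _).mpr h7⟩
      · obtain ⟨h8, h9, σ', a', h10, h11⟩ := mem_filter.mp hz
        obtain ⟨τ, hτ, e⟩ := D.dual.andre hn h10.dual h6.dual
        exact ⟨⟨τ, hτ⟩, D.pt_eq (fun e : l = a' => D.IH_not_inc hn h10 (e ▸ hS.mp hx))
          (hS.mp (mem_erase.mp (hT τ hτ y (mem_erase.mpr ⟨h5, h4⟩))).2)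
          (e ▸ (D.inv τ _ _).mpr h7) (hS.mp h8) h11⟩
    have h9 : ∀ y ∈ S.erase x, ∀ z ∈ S.erase x,
        D.dual.tr x ⊓ stabilizer G y ≤ D.dual.tr x ⊓ stabilizer G z := by
      rintro y hy z hz τ ⟨⟨h9, b, h10, h11⟩, h12⟩
      refine ⟨⟨h9, b, h10, h11⟩, ?_⟩
      by_cases h13 : τ = 1
      · rw [h13]; exact one_mem _
      exact h11 z (D.line_eq (mem_erase.mp hy).1 (hS.mp (mem_erase.mp hy).2) (hS.mp hx)
        ((D.fix_cases h13 h9 h11 h12).resolve_right (mem_erase.mp hy).1) h10 ▸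
          hS.mp (mem_erase.mp hz).2)
    right
    rw [← Nat.add_sub_cancel (n := n) (m := 1), ← D.sd.blk l, ← card_erase_of_mem hx,
      ← Set.ncard_coe_finset, ← h8, ← Nat.card_coe_set_eq]
    refine dvd_card_of_orbits _ _ hT fun z hz => dvd_of_eq ?_
    have h10 := card_orbit_mul (D.dual.tr x) z
    rw [le_antisymm (h9 z hz y (mem_erase.mpr ⟨h5, h4⟩)) (h9 y (mem_erase.mpr ⟨h5, h4⟩) z hz),
      ← card_orbit_mul (D.dual.tr x) y] at h10
    exact (Nat.eq_of_mul_eq_mul_right Nat.card_pos h10).symm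
  have h4 : ∀ x ∈ S, #(S.filter (r x)) = n → ∀ y ∈ S, y ≠ x → r x y := fun x hx e y hy hyx => by
    have h4 : S.filter (r x) = S.erase x := eq_of_subset_of_card_le
      (fun z hz => mem_erase.mpr ⟨(mem_filter.mp hz).2.1, (mem_filter.mp hz).1⟩)
      (by rw [card_erase_of_mem hx, D.sd.blk, e]; omega)
    exact (mem_filter.mp (h4.ge (mem_erase.mpr ⟨hyx, hy⟩))).2
  have h5 : ∀ x ∈ S, #(S.filter (r x)) ≠ n → 3 * #(S.filter (r x)) ≤ n := fun x hx e => by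
    obtain h5 | ⟨c, hc⟩ := h2 x hx
    · omega
    obtain ⟨m, hm⟩ := hn
    obtain _ | _ | _ | c := c
    · omega
    · omega
    · omega
    · nlinarith
  obtain ⟨x₀, hx₀, h6⟩ : ∃ x₀ ∈ S, ∀ x ∈ S.erase x₀, 3 * #(S.filter (r x)) ≤ n := by
    by_cases h6 : ∃ x ∈ S, #(S.filter (r x)) = n
    · obtain ⟨x₀, hx₀, e⟩ := h6
      refine ⟨x₀, hx₀, fun x hx => h5 x (mem_erase.mp hx).2 fun e' => hne ?_⟩
      obtain ⟨h6, h7⟩ := mem_erase.mp hx
      obtain ⟨-, σ, a, h8, h9⟩ := h4 x₀ hx₀ e x h7 h6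
      obtain ⟨-, σ', a', h8', h9'⟩ := h4 x h7 e' x₀ hx₀ h6.symm
      exact D.exists_IH_of_mutual hn h8 h8' h9' h9 (hS.mp hx₀) (hS.mp h7)
    · obtain ⟨x₀, hx₀, -⟩ := D.exists_pt l l
      exact ⟨x₀, hS.mpr hx₀, fun x hx => h5 x (mem_erase.mp hx).2
        fun e => h6 ⟨x, (mem_erase.mp hx).2, e⟩⟩
  have h7 := card_nsmul_le_sum S _ n h1
  have h8 := sum_le_card_nsmul _ _ n h6
  have h9 := add_sum_erase S (fun x => #(S.filter (r x))) hx₀
  have h10 : #(S.filter (r x₀)) ≤ n := (h2 x₀ hx₀).elim (fun e => e ▸ n.zero_le)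
    (Nat.le_of_dvd (by omega))
  rw [sum_add_distrib, show ∑ x ∈ S, #(S.filter (r · x)) = ∑ x ∈ S, #(S.filter (r x)) from
    (sum_card_bipartiteAbove_eq_sum_card_bipartiteBelow r).symm, D.sd.blk, smul_eq_mul] at h7
  rw [← mul_sum, card_erase_of_mem hx₀, D.sd.blk, smul_eq_mul, Nat.add_sub_cancel] at h8
  nlinarith

theorem exists_factor {σ τ : G} {c e : P} {a b : L} (h : IH inc σ c b) (hc : inc c a)
    (hea : inc e a) (heb : inc e b) (hτ : τ ∈ D.tr a) :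
    ∃ τ₁ ∈ persp inc G c a, τ₁⁻¹ * τ ∈ persp inc G e a := by
  have hcb := D.IH_not_inc hn h
  have hab : a ≠ b := fun e => hcb (e ▸ hc)
  have h1 := D.IH_conj h τ
  rw [hτ.1 c hc] at h1
  obtain ⟨τ₁, ⟨h2, a', h3, h4⟩, h5⟩ := D.dual.andre hn h1.dual h.dual
  have h6 : τ₁ ∈ persp inc G c a := by
    by_cases h6 : τ₁ = 1
    · rw [h6]; exact one_mem _
    have h7 : τ₁ • e = e := D.pt_eq (fun e : a = τ • b => D.IH_not_inc hn h1 (e ▸ hc))
      (D.inc_smul hea (h2 a hc)) (h5 ▸ (D.inv _ _ _).mpr heb) hea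
      (hτ.1 e hea ▸ (D.inv _ _ _).mpr heb)
    have hec : e ≠ c := fun e => hcb (e ▸ heb)
    exact ⟨h2, D.line_eq hec ((D.fix_cases h6 h2 h4 h7).resolve_right hec) h3 hea hc ▸ h4⟩
  refine ⟨τ₁, h6, ?_⟩
  obtain ⟨h7, f, h8, h9⟩ := mul_mem (inv_mem (D.persp_le hc h6)) hτ
  by_cases h10 : τ₁⁻¹ * τ = 1
  · rw [h10]; exact one_mem _
  exact ⟨D.pt_eq hab h8 ((D.fix_cases' h10 h9 h7 (by
    rw [mul_smul, inv_smul_eq_iff, h5])).resolve_right hab.symm) hea heb ▸ h9, h7⟩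

omit [Finite G] hn in
theorem persp_eq_one {c c' : P} {a : L} (h : c ≠ c') {g : G} (h1 : g ∈ persp inc G c a)
    (h2 : g ∈ persp inc G c' a) : g = 1 := D.eq_one_of_two_centers h h1.1 h2.1

theorem isPrimePow_of_two_centers (hc : ∀ c, ∃ σ : G, ∃ b, IH inc σ c b) {a : L} {c₁ c₂ : P}
    (h12 : c₁ ≠ c₂) (h₁ : inc c₁ a) (h₂ : inc c₂ a) (h₁' : persp inc G c₁ a ≠ ⊥)
    (h₂' : persp inc G c₂ a ≠ ⊥) : IsPrimePow n := by
  classical
  have := Fintype.ofFinite G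
  let S : Finset P := {p | inc p a}
  have hS : ∀ {p}, p ∈ S ↔ inc p a := by simp [S]
  let t : P → ℕ := fun c => Nat.card (persp inc G c a)
  have h1 : ∀ c ∈ S, ∃ e ∈ S, e ≠ c ∧ Nat.card (D.tr a) ≤ t c * t e := fun c h => by
    obtain ⟨σ, b, hσ⟩ := hc c
    obtain ⟨e, h1, h2⟩ := D.exists_pt a b
    refine ⟨e, hS.mpr h1, fun h => D.IH_not_inc hn hσ (h ▸ h2), ?_⟩
    rw [← Nat.card_prod]
    refine Nat.card_le_card_of_surjective (fun x : persp inc G c a × persp inc G e a =>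
      (⟨x.1 * x.2, mul_mem (D.persp_le (hS.mp h) x.1.2) (D.persp_le h1 x.2.2)⟩ : D.tr a)) fun τ => ?_
    obtain ⟨τ₁, h3, h4⟩ := D.exists_factor hn hσ (hS.mp h) h1 h2 τ.2
    exact ⟨⟨⟨_, h3⟩, ⟨_, h4⟩⟩, Subtype.ext (mul_inv_cancel_left _ _)⟩
  have h2 : ∀ c ∈ S, ∀ e ∈ S, e ≠ c → t c * t e ≤ Nat.card (D.tr a) := fun c h e h' hne => by
    rw [← Nat.card_prod]
    exact Nat.card_le_card_of_injective (fun x : persp inc G c a × persp inc G e a =>
      (⟨x.1 * x.2, mul_mem (D.persp_le (hS.mp h) x.1.2) (D.persp_le (hS.mp h') x.2.2)⟩ : D.tr a))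
      fun x y e => Subgroup.mul_injective_of_disjoint
        (Subgroup.disjoint_def.mpr (D.persp_eq_one hne.symm)) (congrArg Subtype.val e)
  have h3 : ∑ c ∈ S, t c = Nat.card (D.tr a) + n := by
    have h3 : ∀ K : Subgroup G, Nat.card K = #((univ.filter (· ∈ K)).erase 1) + 1 := fun K => by
      rw [card_erase_add_one (by simp [one_mem]), Nat.card_eq_fintype_card, Fintype.card_subtype]
    simp only [t, h3]
    rw [sum_add_distrib, sum_const, D.sd.blk, ← card_biUnion, smul_eq_mul, mul_one, ← add_assoc,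
      add_right_comm]
    · congr 3
      ext g
      simp only [mem_biUnion, mem_erase, mem_filter_univ, hS]
      exact ⟨fun ⟨c, h1, h2, h3⟩ => ⟨h2, D.persp_le h1 h3⟩,
        fun ⟨h1, h2, c, h3, h4⟩ => ⟨c, h3, h1, h4, h2⟩⟩
    · intro c _ e _ hne
      simp only [Function.onFun, disjoint_left, mem_erase, mem_filter_univ]
      exact fun g h h' => h.1 (D.persp_eq_one hne h.2 h'.2)
  obtain ⟨c₀, hc₀, hmax⟩ := exists_max_image S t ⟨c₁, hS.mpr h₁⟩
  obtain ⟨c, h4, h5, h6⟩ : ∃ c ∈ S, c ≠ c₀ ∧ persp inc G c a ≠ ⊥ := by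
    by_cases h : c₁ = c₀
    · exact ⟨c₂, hS.mpr h₂, h ▸ h12.symm, h₂'⟩
    · exact ⟨c₁, hS.mpr h₁, h, h₁'⟩
  have h7 : ∀ e ∈ S.erase c₀, t e * t c₀ = Nat.card (D.tr a) := fun e he => by
    obtain ⟨h7, h8⟩ := mem_erase.mp he
    obtain ⟨f, h9, -, h10⟩ := h1 e h8
    exact le_antisymm (h2 e h8 c₀ hc₀ h7.symm) (h10.trans (Nat.mul_le_mul_left _ (hmax f h9)))
  have h8 := h7 c (mem_erase.mpr ⟨h5, h4⟩)
  rw [← add_sum_erase _ _ hc₀, sum_congr rfl fun e he => Nat.eq_of_mul_eq_mul_right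
    (Nat.card_pos (α := persp inc G c₀ a)) ((h7 e he).trans h8.symm), sum_const,
    card_erase_of_mem hc₀, D.sd.blk, ← h8, smul_eq_mul, Nat.add_sub_cancel] at h3
  have h9 : 1 < t c := (Subgroup.one_lt_card_iff_ne_bot _).mpr h6
  have h10 : t c₀ = n := by
    zify at h3 h9 ⊢
    exact sub_eq_zero.mp ((mul_eq_zero.mp (show ((t c₀ : ℤ) - n) * (t c - 1) = 0 by
      linear_combination -h3)).resolve_right (by omega))
  obtain ⟨x, hx, hp⟩ := H3.exists_prime_orderOf_mem h6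
  have := Fact.mk hp
  have h11 : IsPGroup (orderOf x) (persp inc G c₀ a) := fun ⟨y, hy⟩ => ⟨1, Subtype.ext (by
    have h11 : Commute y x := by
      rw [← commutatorElement_eq_one_iff_commute, commutatorElement_def]
      refine D.eq_one_of_two_centers h5 (mul_mem ?_ (inv_mem hx.1)) ?_
      · simpa only [hy.2 c (hS.mp h4)] using axial_conj D.dual.inv y hx.1
      · have := axial_conj D.dual.inv x (inv_mem hy.1)
        rw [hx.2 c₀ (hS.mp hc₀)] at this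
        simpa only [mul_assoc] using Subgroup.mul_mem _ hy.1 this
    obtain ⟨-, f, -, h12⟩ := mul_mem (D.persp_le (hS.mp hc₀) hy) (D.persp_le (hS.mp h4) hx)
    have h13 := pow_mem h12 (orderOf x)
    rw [h11.mul_pow, pow_orderOf_eq_one, mul_one] at h13
    simpa using D.eq_one_of_two_centers (fun e : f = c₀ => H3.ne_one_of_orderOf_prime hp
      (D.eq_one_of_two_centers h5 hx.1 ((Subgroup.mul_mem_cancel_left _ hy.1).mp (e ▸ h12)))) h13
      (pow_mem hy.1 _))⟩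
  obtain ⟨k, hk⟩ := h11.exists_card_eq
  have := D.two
  exact (isPrimePow_nat_iff n).mpr ⟨_, k, hp, Nat.pos_of_ne_zero fun e => by
    rw [e, pow_zero] at hk; simp only [t] at h10; omega, hk.symm.trans h10⟩

theorem exists_two (hc : ∀ c, ∃ σ : G, ∃ b, IH inc σ c b) (ha : ∀ a, ∃ σ : G, ∃ c, IH inc σ c a)
    (h : ∀ a c₁ c₂, c₁ ≠ c₂ → inc c₁ a → inc c₂ a → persp inc G c₁ a = ⊥ ∨ persp inc G c₂ a = ⊥)
    {c₀ : P} {a₀ : L} (h₀ : inc c₀ a₀) (h₀' : persp inc G c₀ a₀ ≠ ⊥) :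
    ∃ m, m ≠ a₀ ∧ inc c₀ m ∧ persp inc G c₀ m ≠ ⊥ := by
  classical
  have h1 : ∀ c, c ≠ c₀ → inc c a₀ → ∀ g ∈ persp inc G c a₀, g = 1 := fun c h1 h2 g hg =>
    Subgroup.mem_bot.mp (((h a₀ c c₀ h1 h2 h₀).resolve_right h₀').le hg)
  have h2 : ∀ τ ∈ D.tr a₀, τ ∈ axial (du inc) G c₀ := fun τ ⟨h2, c, h3, h4⟩ => by
    by_cases e : c = c₀
    · exact e ▸ h4
    · rw [h1 c e h3 τ ⟨h4, h2⟩]; exact one_mem _
  obtain ⟨ρ, f₀, hρ⟩ := ha a₀
  have hf₀ := D.IH_not_inc hn hρ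
  obtain ⟨m, h3, h4⟩ := D.exists_line f₀ c₀
  have hm : m ≠ a₀ := fun e => hf₀ (e ▸ h3)
  have h5 : ∀ c, c ≠ c₀ → inc c a₀ → ∃ σ : G, IH inc σ c m := fun c h5 h6 => by
    obtain ⟨σ, b, hσ⟩ := hc c
    obtain ⟨e, h7, h8⟩ := D.exists_pt a₀ b
    obtain ⟨⟨τ, hτ⟩, hτ1⟩ := Subgroup.ne_bot_iff_exists_ne_one.mp h₀'
    obtain ⟨τ₁, h9, h10⟩ := D.exists_factor hn hσ h6 h7 h8 (D.persp_le h₀ hτ)
    rw [h1 c h5 h6 τ₁ h9, inv_one, one_mul] at h10
    obtain rfl : e = c₀ := D.center_eq (fun e => hτ1 (Subtype.ext e)) h10.1 hτ.1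
    obtain ⟨f, h11, h12⟩ := exists_fixed_of_odd hσ.2.1 (S := univ.filter (· ∈ orbit (D.tr a₀) f₀))
      (fun x hx => by
        obtain ⟨τ, rfl⟩ := (mem_filter.mp hx).2
        have h11 := D.IH_conj (D.IH_conj hρ τ) σ
        rw [D.axis_fix τ.2.1, hσ.2.2.1 a₀ h6] at h11
        obtain ⟨τ', h12, h13⟩ := D.andre hn h11 hρ
        exact mem_filter.mpr ⟨mem_univ _, ⟨τ', h12⟩, h13⟩)
      ((D.odd_card_tr hn a₀).of_dvd_nat ⟨_, by
        rw [← card_orbit_mul (D.tr a₀) f₀, Nat.card_eq_fintype_card, Fintype.card_subtype]⟩)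
    obtain ⟨⟨τ, hτ'⟩, h14⟩ := (mem_filter.mp h11).2
    obtain rfl : τ • f₀ = f := h14
    have h13 : ¬ inc (τ • f₀) a₀ := by rwa [← D.axis_fix hτ'.1, D.inv]
    exact ⟨σ, D.line_eq (fun e : τ • f₀ = e => h13 (e ▸ h₀))
      ((D.fix_cases hσ.1 hσ.2.2.1 hσ.2.2.2 h12).resolve_right fun e => h13 (e ▸ h6)) h8
      (D.inc_smul h3 (h2 τ hτ' m h4)) h4 ▸ hσ⟩
  obtain ⟨c, h6, h7, -⟩ := D.exists_on a₀ c₀ c₀
  obtain ⟨c', h8, h9, h10⟩ := D.exists_on a₀ c₀ c
  obtain ⟨σ, hσ⟩ := h5 c h7 h6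
  obtain ⟨σ', hσ'⟩ := h5 c' h9 h8
  obtain ⟨τ, ⟨h11, c₁, h12, h13⟩, h14⟩ := D.andre hn hσ' hσ
  obtain ⟨l, h15, h16⟩ := D.exists_line c c₁
  obtain rfl : l = a₀ := D.line_eq h10 (h14 ▸ D.inc_smul h15 (h13 l h16)) h15 h8 h6
  obtain rfl : c₁ = c₀ := D.pt_eq hm h12 h16 h4 h₀
  exact ⟨m, hm, h4, Subgroup.ne_bot_iff_exists_ne_one.mpr ⟨⟨τ, h13, h11⟩, fun e => h10 (by
    rw [← h14, show τ = 1 from congrArg Subtype.val e, one_smul])⟩⟩

theorem exists_elation (hc : ∀ c, ∃ σ : G, ∃ b, IH inc σ c b) (x : P) :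
    ∃ c a, inc c a ∧ persp inc G c a ≠ ⊥ := by
  classical
  by_contra hne
  push Not at hne
  choose σ β h using hc
  have h1 : ∀ {ρ : G} {c d a}, IH inc ρ c a → β d = a → c = d := fun h1 h2 => by
    obtain ⟨τ, ⟨h3, e, h4, h5⟩, h6⟩ := D.andre hn h1 (h2 ▸ h _)
    rw [← h6, Subgroup.mem_bot.mp ((hne e _ h4).le ⟨h5, h3⟩), one_smul]
  have h2 : ∀ {ρ : G} {c a}, IH inc ρ c a → a = β c := fun h1 => by
    obtain ⟨τ, ⟨h3, e, h4, h5⟩, h6⟩ := D.dual.andre hn h1.dual (h _).dual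
    rw [← h6, Subgroup.mem_bot.mp ((hne _ e h4).le ⟨h3, h5⟩), one_smul]
  have hβ : Function.Bijective β := (Fintype.bijective_iff_injective_and_card β).mpr
    ⟨fun c d e => h1 (h c) e.symm, D.sd.card_eq⟩
  have h3 : ∀ {c d}, inc d (β c) → inc c (β d) := fun {c d} hd => by
    have h3 := D.IH_conj (h d) (σ c)
    rw [(h c).2.2.2 d hd] at h3
    exact (D.fix_cases' (h c).1 (h c).2.2.1 (h c).2.2.2 (h2 h3)).resolve_right
      fun e => D.IH_not_inc hn (h d) (e ▸ hd)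
  have D' : SD (fun c d => inc c (β d)) (n + 1) 1 :=
    D.sd.congr (Equiv.refl _) (Equiv.ofBijective β hβ).symm fun p l => by
      rw [Equiv.ofBijective_apply_symm_apply β]; rfl
  have := D.two
  have hp := Fact.mk (Nat.minFac_prime (show n ≠ 1 by omega))
  have hn0 : (n : ZMod n.minFac) = 0 := (ZMod.natCast_eq_zero_iff _ _).mpr n.minFac_dvd
  let A : Matrix P P (ZMod n.minFac) := Matrix.of fun c d => if inc c (β d) then 1 else 0
  let J : Matrix P P (ZMod n.minFac) := Matrix.of fun _ _ => 1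
  have h4 : A * A = J := by
    ext c d
    have h4 : ∀ e, A c e * A e d = if inc c (β e) ∧ inc d (β e) then 1 else 0 := fun e => by
      simp only [A, Matrix.of_apply, show inc e (β d) ↔ inc d (β e) from ⟨h3, h3⟩]
      by_cases h : inc c (β e) <;> simp [h]
    simp only [Matrix.mul_apply, h4, sum_boole, J, Matrix.of_apply]
    by_cases e : c = d
    · simp [e, D'.pt, hn0]
    · simp [D'.pp e]
  have h5 : J * A = J := by
    ext c d
    simp [Matrix.mul_apply, J, A, D'.blk, hn0]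
  have h6 : ∀ k, A ^ (k + 2) = J := fun k => by
    induction k with
    | zero => rw [zero_add, sq, h4]
    | succ k ih => rw [add_right_comm, pow_succ, ih, h5]
  have h7 := ZMod.trace_pow_card A
  have h8 := h6 (n.minFac - 2)
  rw [Nat.sub_add_cancel hp.out.two_le] at h8
  rw [h8] at h7
  simp [Matrix.trace, J, A, fun c => D.IH_not_inc hn (h c), D.card_pt x, hn0, hp.out.ne_zero] at h7

theorem isPrimePow (x : P)
    (h : ∀ x y : P, x ≠ y → ∃ σ : G, ∃ c a, IH inc σ c a ∧ σ • x = x ∧ σ • y = y)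
    (h' : ∀ x y : L, x ≠ y → ∃ σ : G, ∃ c a, IH inc σ c a ∧ σ • x = x ∧ σ • y = y) :
    IsPrimePow n := by
  by_cases h3 : n ≤ 3
  · obtain ⟨m, hm⟩ := hn
    have := D.two
    exact (show n = 3 by omega) ▸ Nat.prime_three.isPrimePow
  have ha := D.exists_IH_axis hn (by omega) h
  have hc : ∀ c, ∃ σ : G, ∃ b, IH inc σ c b := fun c => by
    obtain ⟨σ, b, h⟩ := D.dual.exists_IH_axis hn (by omega) (fun x y hxy => by
      obtain ⟨σ, c, a, h1, h2⟩ := h' x y hxy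
      exact ⟨σ, a, c, h1.dual, h2⟩) c
    exact ⟨σ, b, h.dual⟩
  by_contra hne
  obtain ⟨c, a, h1, h2⟩ := D.exists_elation hn hc x
  obtain ⟨m, h4, h5, h6⟩ := D.exists_two hn hc ha (fun a c₁ c₂ h4 h5 h6 => by_contra fun h7 =>
    hne (D.isPrimePow_of_two_centers hn hc h4 h5 h6 (not_or.mp h7).1 (not_or.mp h7).2)) h1 h2
  exact hne (D.dual.isPrimePow_of_two_centers hn (fun a => by
    obtain ⟨σ, b, h⟩ := ha a
    exact ⟨σ, b, h.dual⟩) h4 h5 h1 (fun e => h6 ((inf_comm _ _).trans e))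
    fun e => h2 ((inf_comm _ _).trans e))

end Pl

end Cfsg.Agent.H8
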