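import Cfsg.Agent.H8.Plane2
import Cfsg.Agent.H8.Prime5

/-!
A doubly transitive collineation group of a finite projective plane contains a perspectivity.
-/

set_option autoImplicit false
set_option linter.unusedSectionVars false

namespace Cfsg.Agent.H8

open MulAction Finset

theorem exists_sq_mem {G : Type*} [Group G] [Finite G] {Λ H : Subgroup G} (hΛ : IsPGroup 2 Λ)
    (hle : Λ ≤ H) (h : 2 * Nat.card Λ ∣ Nat.card H) :
    ∃ g ∈ H, g ∉ Λ ∧ g ∈ Subgroup.normalizer (Λ : Set G) ∧ g * g ∈ Λ := by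
  obtain ⟨k, hk⟩ := hΛ.exists_card_eq
  obtain ⟨K, h1, h2⟩ := Sylow.exists_subgroup_card_pow_succ (p := 2) (n := k) (G := H)
    (by rwa [pow_succ', ← hk]) (H := Λ.subgroupOf H)
    ((Nat.card_congr (Subgroup.subgroupOfEquivOfLe hle).toEquiv).trans hk)
  have h3 : Λ ≤ K.map H.subtype := fun x hx => ⟨⟨x, hle hx⟩, h2 hx, rfl⟩
  have h4 : (Λ.subgroupOf (K.map H.subtype)).index = 2 := by
    have := H9.card_mul_relIndex_of_le h3
    rw [Subgroup.card_map_of_injective H.subtype_injective, h1, hk, pow_succ] at this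
    exact Nat.eq_of_mul_eq_mul_left (by positivity) this
  obtain ⟨g, hg, -⟩ := Subgroup.index_eq_two_iff_exists_notMem_and.mp h4
  refine ⟨g, Subgroup.map_subtype_le K g.2, hg, (Subgroup.normal_subgroupOf_iff_le_normalizer h3).mp
    (Subgroup.normal_of_index_eq_two h4) g.2, Subgroup.mul_self_mem_of_index_two h4 g⟩

theorem le_stabilizer_smul {G X : Type*} [Group G] [MulAction G X] {Λ : Subgroup G} {g : G}
    (h : g ∈ Subgroup.normalizer (Λ : Set G)) (p : X) :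
    Λ ≤ stabilizer G (g • p) ↔ Λ ≤ stabilizer G p := by
  refine ⟨fun h1 a ha => ?_, fun h1 a ha => ?_⟩
  · simpa [mul_smul] using h1 ((Subgroup.mem_normalizer_iff.mp h a).mp ha)
  · have := h1 ((Subgroup.mem_normalizer_iff''.mp h a).mp ha)
    rwa [mem_stabilizer_iff, mul_smul, mul_smul, inv_smul_eq_iff] at this

theorem sup_zpowers_le_stabilizer {G X : Type*} [Group G] [MulAction G X] {Λ : Subgroup G} {g : G}
    (p : X) : Λ ⊔ Subgroup.zpowers g ≤ stabilizer G p ↔ Λ ≤ stabilizer G p ∧ g • p = p := by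
  rw [sup_le_iff, Subgroup.zpowers_le, mem_stabilizer_iff]

theorem isPGroup_sup_zpowers {G : Type*} [Group G] {Λ : Subgroup G} {g : G} (hΛ : IsPGroup 2 Λ)
    (h4 : g ∈ Subgroup.normalizer (Λ : Set G)) (h5 : g * g ∈ Λ) :
    IsPGroup 2 (Λ ⊔ Subgroup.zpowers g : Subgroup G) := by
  refine hΛ.to_sup_of_normal_left' ?_ (Subgroup.zpowers_le_of_mem h4)
  obtain ⟨k, hk⟩ := hΛ ⟨_, h5⟩
  exact IsPGroup.of_card_dvd_pow (n := k + 1) (by
    rw [Nat.card_zpowers, orderOf_dvd_iff_pow_eq_one, pow_succ', pow_mul, sq]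
    exact congrArg Subtype.val hk)

theorem orbit_eq_of_isSylowIn {G X : Type*} [Group G] [Finite G] [MulAction G X] {p : ℕ}
    (hp : p.Prime) {R T : Subgroup G} (y : X) (k : ℕ) (h : H9.IsSylowIn p R T)
    (h' : Nat.card (orbit T y) = p ^ k) : orbit R y = orbit T y :=
  orbit_eq_of_coprime h.le y (h' ▸ (hp.coprime_iff_not_dvd.mpr h.not_dvd).pow_left k)

variable {P L : Type*}

/-- The collineation group. -/
def coll (inc : P → L → Prop) : Subgroup (Equiv.Perm P × Equiv.Perm L) where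
  carrier := {g | ∀ p l, inc (g.1 p) (g.2 l) ↔ inc p l}
  mul_mem' h h' p l := (h _ _).trans (h' p l)
  one_mem' _ _ := Iff.rfl
  inv_mem' {g} h p l := by simpa using (h (g.1⁻¹ p) (g.2⁻¹ l)).symm

instance collP (inc : P → L → Prop) : MulAction (coll inc) P where
  smul g p := g.1.1 p
  one_smul _ := rfl
  mul_smul _ _ _ := rfl

instance collL (inc : P → L → Prop) : MulAction (coll inc) L where
  smul g p := g.1.2 p
  one_smul _ := rfl
  mul_smul _ _ _ := rfl

variable [Fintype P] [Fintype L] {inc : P → L → Prop} [∀ p l, Decidable (inc p l)] {n : ℕ}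

theorem SD.pl (D : SD inc (n + 1) 1) (h : 2 ≤ n) : Pl inc n (coll inc) :=
  ⟨D, h, fun g => g.2, fun g hg => Subtype.ext (Prod.ext (Equiv.ext hg) (Equiv.ext fun l =>
    (D.eq_of_sub fun p hp => by rw [← show g.1.1 p = p from hg p, g.2]; exact hp).symm))⟩

variable {G : Type*} [Group G] [MulAction G P] [MulAction G L] [Finite G]

namespace Pl

variable (D : Pl inc n G)
  (h2 : ∀ {x y x' y' : P}, x ≠ y → x' ≠ y' → ∃ g : G, g • x = x' ∧ g • y = y')
include D h2

theorem antiflag {x : P} {l l' : L} (h : ¬ inc x l) (h' : ¬ inc x l') :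
    ∃ g : G, g • x = x ∧ g • l = l' := by
  obtain ⟨y, h1, h3, -⟩ := D.exists_on l x x
  obtain ⟨a, h4, -⟩ := D.exists_line x x
  exact D.sd.orbit_of_two D.inv (stabilizer G x) (p₀ := x) (p₁ := y) (a := a) (fun p => by
      by_cases e : p = x
      · exact Or.inl ⟨1, one_mem _, by rw [e, one_smul]⟩
      · exact Or.inr (h2 h3.symm (Ne.symm e)))
    (fun g hg e => h (by rw [← e, ← mem_stabilizer_iff.mp hg, D.inv]; exact h4))
    fun g hg e => h' (by rw [← e, ← mem_stabilizer_iff.mp hg, D.inv]; exact h4)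

theorem two_lines {a b a' b' : L} (h : a ≠ b) (h' : a' ≠ b') : ∃ g : G, g • a = a' ∧ g • b = b' := by
  have h1 : ∀ {x y a a'}, inc x a → inc y a' → ∃ g : G, g • x = y ∧ g • a = a' := by
    intro x y a a' hx hy
    obtain ⟨u, h1, h3, -⟩ := D.exists_on a x x
    obtain ⟨v, h4, h5, -⟩ := D.exists_on a' y y
    obtain ⟨g, rfl, rfl⟩ := h2 h3 h5
    exact ⟨g, rfl, D.line_eq h5 ((D.inv _ _ _).mpr h1) ((D.inv _ _ _).mpr hx) h4 hy⟩
  obtain ⟨x, h3, h4⟩ := D.exists_pt a' b'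
  obtain ⟨y, h5, h6, -⟩ := D.exists_on b' x x
  have h7 : ¬ inc y a' := fun e => h6 (D.pt_eq h' e h5 h3 h4)
  obtain ⟨z, h8, -⟩ := D.exists_pt a a
  obtain ⟨g, -, rfl⟩ := h1 h8 h3
  obtain ⟨k, h9, h10⟩ := D.sd.orbit_of_two D.inv (stabilizer G (g • a)) (p₀ := x) (p₁ := y)
    (a := g • a) (b := g • b) (c := b') (fun p => by
      by_cases e : inc p (g • a)
      · exact Or.inl ((h1 h3 e).imp fun _ => And.symm)
      · obtain ⟨l, h9, -⟩ := D.exists_line p p
        obtain ⟨k, rfl, -⟩ := h1 h5 h9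
        obtain ⟨k', h10, h11⟩ := D.antiflag h2 (mt (D.inv k _ _).mp h7) e
        exact Or.inr ⟨k' * k, by rwa [mem_stabilizer_iff, mul_smul], by rwa [mul_smul]⟩)
    (fun k hk => by rw [hk]; exact (MulAction.injective g).ne h) fun k hk => by rwa [hk]
  exact ⟨k * g, by rwa [mul_smul], by rwa [mul_smul]⟩

omit D in
theorem orbit_stabilizer {x y : P} (h : x ≠ y) : orbit (stabilizer G x) y = {x}ᶜ := by
  refine Set.Subset.antisymm ?_ fun z hz => ?_
  · rintro _ ⟨g, rfl⟩ e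
    exact h (MulAction.injective (g : G) ((mem_stabilizer_iff.mp g.2).trans e.symm))
  · obtain ⟨g, h1, h3⟩ := h2 h (Ne.symm hz)
    exact ⟨⟨g, h1⟩, h3⟩

theorem card_orbit_stabilizer {x y : P} (h : x ≠ y) :
    Nat.card (orbit (stabilizer G x) y) = n * (n + 1) := by
  rw [orbit_stabilizer h2 h, Nat.card_coe_set_eq, Set.ncard_compl, Set.ncard_singleton,
    Nat.card_eq_fintype_card, D.card_pt x, Nat.add_sub_cancel]
  ring

theorem odd_of_no_persp (x : P) (h : ∀ g : G, g ≠ 1 → ∀ a, g ∉ axial inc G a) : Odd n := by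
  classical
  by_contra hn
  obtain ⟨S, hS⟩ := H9.exists_isSylowIn 2 (stabilizer G x)
  have h1 : ∀ y, x ≠ y → ∀ k, 2 ^ k ∣ n → 2 ^ k ∣ Nat.card (orbit S y) := fun y hy k hk =>
    (Nat.Coprime.pow_left k ((Nat.Prime.coprime_iff_not_dvd Nat.prime_two).mpr
      hS.not_dvd)).dvd_of_dvd_mul_right ((hk.mul_right _).trans
        (D.card_orbit_stabilizer h2 hy ▸ card_orbit_dvd_mul hS.le y))
  obtain ⟨l, -, -⟩ := D.exists_line x x
  obtain ⟨y, -, hy, -⟩ := D.exists_on l x x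
  obtain ⟨z, h3, h4, h5, h6, -⟩ := exists_commute_of_normalizes Nat.prime_two hS.isPGroup hS.isPGroup
    (hS.ne_bot ((Nat.not_odd_iff_even.mp hn).two_dvd.trans ⟨_, by
      rw [← card_orbit_mul _ y, D.card_orbit_stabilizer h2 hy.symm, mul_assoc]⟩))
    fun a ha q hq => mul_mem (mul_mem ha hq) (inv_mem ha)
  obtain ⟨m, h7, h8⟩ := D.baer (by rwa [← sq]) (h z h4) x
  have h9 := D.two
  have hm : 2 ≤ m := by nlinarith
  have h10 := (h8.pl hm).card_pt ⟨x, hS.le h3⟩
  obtain ⟨j, r, hr, rfl⟩ := Nat.exists_eq_two_pow_mul_odd (show m ≠ 0 by omega)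
  obtain _ | j := j
  · exact hn (h7 ▸ by simpa using hr.pow)
  have h11 := dvd_card_of_orbits S ((univ.filter fun p : P => z • p = p).erase x)
    (fun g hg p hp => by
      simp only [mem_erase, mem_filter_univ] at hp ⊢
      exact ⟨fun e => hp.1 (MulAction.injective g (e.trans (hS.le hg).symm)),
        by rw [← mul_smul, ← h6 g hg, mul_smul, hp.2]⟩) (s := 2 ^ (j + 1 + 1))
    fun p hp => h1 p (mem_erase.mp hp).1.symm _ ⟨2 ^ j * r ^ 2, by rw [← h7]; ring⟩
  rw [card_erase_of_mem (by simpa using hS.le h3), ← Fintype.card_subtype, h10, Nat.add_sub_cancel,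
    show (2 ^ (j + 1) * r) ^ 2 + 2 ^ (j + 1) * r = 2 ^ (j + 1) * (2 * (2 ^ j * r ^ 2) + r) by ring,
    pow_succ 2 (j + 1), Nat.mul_dvd_mul_iff_left (by positivity)] at h11
  obtain ⟨r, rfl⟩ := hr
  omega

omit D in
theorem card_stab_two {x y x' y' : P} (h : x ≠ y) (h' : x' ≠ y') :
    Nat.card (stabilizer G x ⊓ stabilizer G y : Subgroup G) =
      Nat.card (stabilizer G x' ⊓ stabilizer G y' : Subgroup G) := by
  have key : ∀ {x y x' y' : P}, x ≠ y → x' ≠ y' →
      Nat.card (stabilizer G x ⊓ stabilizer G y : Subgroup G) ≤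
        Nat.card (stabilizer G x' ⊓ stabilizer G y' : Subgroup G) := fun h h' => by
    obtain ⟨g, rfl, rfl⟩ := h2 h h'
    exact card_le_of_conj g fun a ha => by
      simpa only [Subgroup.mem_inf, mem_stabilizer_iff, mul_smul, inv_smul_smul,
        smul_left_cancel_iff] using ha
  exact le_antisymm (key h h') (key h' h)

theorem isPrimePow_of_odd (x : P) (hn : Odd n) : IsPrimePow n := by
  classical
  have := Fintype.ofFinite (Subgroup G)
  let Q : Subgroup G → Prop := fun Λ => IsPGroup 2 Λ ∧ ∃ q j, q ^ 2 ^ j = n ∧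
    SD (fun (p : {p : P // Λ ≤ stabilizer G p}) (l : {l : L // Λ ≤ stabilizer G l}) => inc p l)
      (q + 1) 1
  obtain ⟨Λ, hΛ, hmax⟩ := exists_max_image (univ.filter Q) (fun Λ => Nat.card Λ)
    ⟨⊥, mem_filter.mpr ⟨mem_univ _, IsPGroup.of_bot, n, 0, by simp,
      D.sd.congr (Equiv.subtypeUnivEquiv fun _ => bot_le).symm
        (Equiv.subtypeUnivEquiv fun _ => bot_le).symm fun _ _ => Iff.rfl⟩⟩
  obtain ⟨hΛ, q, j, hq, D₀⟩ := (mem_filter.mp hΛ).2
  have h1 := D.two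
  have hq2 : 2 ≤ q := by
    by_contra h
    have := Nat.pow_le_pow_left (show q ≤ 1 by omega) (2 ^ j)
    rw [one_pow] at this
    omega
  have hqo : Odd q := hn.of_dvd_nat (hq ▸ dvd_pow_self q (by positivity))
  have E := D₀.pl hq2
  obtain ⟨x₀⟩ : Nonempty {p : P // Λ ≤ stabilizer G p} := by
    obtain ⟨p, hp⟩ := hΛ.nonempty_fixed_point_of_prime_not_dvd_card P (by
      rw [Nat.card_eq_fintype_card, D.card_pt x, sq, ← Nat.mul_succ]
      have := Nat.even_mul_succ_self n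
      grind)
    exact ⟨p, fun g hg => hp ⟨g, hg⟩⟩
  have key : ∀ g ∉ Λ, g ∈ Subgroup.normalizer (Λ : Set G) → g * g ∈ Λ →
      ∃ σ : coll (fun (p : {p : P // Λ ≤ stabilizer G p})
        (l : {l : L // Λ ≤ stabilizer G l}) => inc p l), ∃ c a, IH (fun (p : {p : P // Λ ≤ stabilizer G p})
        (l : {l : L // Λ ≤ stabilizer G l}) => inc p l) σ c a ∧
        (∀ p : {p : P // Λ ≤ stabilizer G p}, (σ • p).1 = g • p.1) ∧
        ∀ p : {p : L // Λ ≤ stabilizer G p}, (σ • p).1 = g • p.1 := by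
    intro g h3 h4 h5
    let σ : coll (fun (p : {p : P // Λ ≤ stabilizer G p})
        (l : {l : L // Λ ≤ stabilizer G l}) => inc p l) :=
      ⟨⟨(toPerm g).subtypePerm (le_stabilizer_smul h4), (toPerm g).subtypePerm
        (le_stabilizer_smul h4)⟩, fun p l => D.inv g p l⟩
    have h6 : σ * σ = 1 := E.faith _ fun p => Subtype.ext ((mul_smul g g p.1).symm.trans (p.2 h5))
    have h7 : ¬ Q (Λ ⊔ Subgroup.zpowers g) := fun h => by
      have h7 := hmax _ (mem_filter.mpr ⟨mem_univ _, h⟩)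
      exact h3 (Subgroup.eq_of_le_of_card_ge le_sup_left h7 ▸
        Subgroup.mem_sup_right (Subgroup.mem_zpowers g))
    have h8 := isPGroup_sup_zpowers hΛ h4 h5
    have h10 : σ ≠ 1 := fun e => h7 ⟨h8, q, j, hq, D₀.congr
      (Equiv.subtypeEquivRight fun p => ((sup_zpowers_le_stabilizer p).trans (and_iff_left_of_imp fun h =>
        congrArg (fun τ => (τ • (⟨p, h⟩ : {p : P // Λ ≤ stabilizer G p})).1) e)).symm)
      (Equiv.subtypeEquivRight fun p => ((sup_zpowers_le_stabilizer p).trans (and_iff_left_of_imp fun h =>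
        congrArg (fun τ => (τ • (⟨p, h⟩ : {p : L // Λ ≤ stabilizer G p})).1) e)).symm)
      fun _ _ => Iff.rfl⟩
    obtain ⟨a, ha⟩ : ∃ a, σ ∈ axial _ _ a := by
      by_contra hne
      push Not at hne
      obtain ⟨m, h11, h12⟩ := E.baer h6 hne x₀
      exact h7 ⟨h8, m, j + 1, by rw [pow_succ', pow_mul, h11, hq], h12.congr
        ⟨fun p => ⟨p.1.1, (sup_zpowers_le_stabilizer _).mpr ⟨p.1.2, congrArg Subtype.val p.2⟩⟩,
          fun p => ⟨⟨p.1, ((sup_zpowers_le_stabilizer _).mp p.2).1⟩, Subtype.ext ((sup_zpowers_le_stabilizer _).mp p.2).2⟩, fun _ => rfl,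
          fun _ => rfl⟩
        ⟨fun p => ⟨p.1.1, (sup_zpowers_le_stabilizer _).mpr ⟨p.1.2, congrArg Subtype.val p.2⟩⟩,
          fun p => ⟨⟨p.1, ((sup_zpowers_le_stabilizer _).mp p.2).1⟩, Subtype.ext ((sup_zpowers_le_stabilizer _).mp p.2).2⟩, fun _ => rfl,
          fun _ => rfl⟩ fun _ _ => Iff.rfl⟩
    obtain ⟨c, hc⟩ := E.exists_center ha
    exact ⟨σ, c, a, ⟨h10, h6, hc, ha⟩, fun _ => rfl, fun _ => rfl⟩
  obtain ⟨l₀, -, -⟩ := E.exists_line x₀ x₀
  obtain ⟨y₀, -, hy₀, -⟩ := E.exists_on l₀ x₀ x₀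
  obtain ⟨g, -, h3, h4, h5⟩ := exists_sq_mem hΛ le_top (by
    have h3 := card_orbit_mul (stabilizer G x₀.1) y₀.1
    rw [D.card_orbit_stabilizer h2 (Subtype.val_injective.ne hy₀.symm)] at h3
    exact (h3 ▸ mul_dvd_mul (Nat.even_mul_succ_self n).two_dvd
      (Subgroup.card_dvd_of_le (le_inf x₀.2 y₀.2))).trans (Subgroup.card_dvd_of_le le_top))
  obtain ⟨σ, c, a, h6, h7, h8⟩ := key g h3 h4 h5
  have h9 : ∀ H : Subgroup G, Λ ≤ H → g ∈ H → 2 * Nat.card Λ ∣ Nat.card H := fun H h9 h10 => by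
    obtain ⟨k, hk⟩ := hΛ.exists_card_eq
    obtain ⟨k', hk'⟩ := (isPGroup_sup_zpowers hΛ h4 h5).exists_card_eq
    refine dvd_trans ?_ (Subgroup.card_dvd_of_le (sup_le h9 (Subgroup.zpowers_le.mpr h10)))
    rw [hk, hk', ← pow_succ']
    refine pow_dvd_pow 2 (Nat.succ_le_of_lt (not_le.mp fun h => h3 ?_))
    exact Subgroup.eq_of_le_of_card_ge le_sup_left (by
      rw [hk, hk']; exact Nat.pow_le_pow_right two_pos h) ▸
        Subgroup.mem_sup_right (Subgroup.mem_zpowers g)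
  refine hq ▸ (E.isPrimePow hqo x₀ (fun u v huv => ?_) fun u v huv => ?_).pow (by positivity)
  · obtain ⟨u', h10, -⟩ := E.exists_pt a a
    obtain ⟨v', h11, h12, -⟩ := E.exists_on a u' u'
    obtain ⟨k, h13, h14, h15, h16⟩ := exists_sq_mem hΛ (le_inf u.2 v.2) (by
      rw [card_stab_two h2 (Subtype.val_injective.ne huv) (Subtype.val_injective.ne h12)]
      exact h9 _ (le_inf v'.2 u'.2) ⟨(h7 v').symm.trans (congrArg _ (h6.2.2.2 v' h11)),
        (h7 u').symm.trans (congrArg _ (h6.2.2.2 u' h10))⟩)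
    obtain ⟨τ, c, a, h17, h18, -⟩ := key k h14 h15 h16
    exact ⟨τ, c, a, h17, Subtype.ext ((h18 u).trans h13.1), Subtype.ext ((h18 v).trans h13.2)⟩
  · obtain ⟨u', h10, -⟩ := E.exists_line c c
    obtain ⟨v', h11, h12, -⟩ := E.exists_through c u' u'
    obtain ⟨k, h13, h14, h15, h16⟩ := exists_sq_mem hΛ (le_inf u.2 v.2) (by
      rw [card_stab_two (D.two_lines h2) (Subtype.val_injective.ne huv)
        (Subtype.val_injective.ne h12)]
      exact h9 _ (le_inf v'.2 u'.2) ⟨(h8 v').symm.trans (congrArg _ (h6.2.2.1 v' h11)),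
        (h8 u').symm.trans (congrArg _ (h6.2.2.1 u' h10))⟩)
    obtain ⟨τ, c, a, h17, -, h18⟩ := key k h14 h15 h16
    exact ⟨τ, c, a, h17, Subtype.ext ((h18 u).trans h13.1), Subtype.ext ((h18 v).trans h13.2)⟩

theorem exists_persp_of_isPrimePow (x : P) (hn : IsPrimePow n) :
    ∃ g : G, g ≠ 1 ∧ ∃ c, g ∈ axial (du inc) G c := by
  classical
  obtain ⟨p, e, hp, he, rfl⟩ := (isPrimePow_nat_iff n).mp hn
  have := Fact.mk hp
  have h1 : ∀ {u v : P} {l m m' : L}, u ≠ v → inc u l → inc v l → inc v m → inc v m' → m ≠ l →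
      m' ≠ l → ∃ g : G, g • u = u ∧ g • v = v ∧ g • m = m' := by
    obtain ⟨U, hU⟩ := H9.exists_isSylowIn p (stabilizer G x)
    obtain ⟨l₀, h3, h4⟩ : ∃ l₀, inc x l₀ ∧ ∀ g ∈ U, g • l₀ = l₀ := by
      by_contra hne
      push Not at hne
      have h3 := dvd_card_of_orbits U (univ.filter fun l => inc x l) (fun g hg l hl => by
        rw [mem_filter_univ] at hl ⊢
        rwa [← mem_stabilizer_iff.mp (hU.le hg), D.inv]) (s := p) fun l hl => by
          obtain ⟨k, hk⟩ := hU.isPGroup.card_orbit l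
          obtain ⟨g, h3, h4⟩ := hne l (mem_filter.mp hl).2
          refine hk ▸ dvd_pow_self p fun e => h4 ?_
          rw [e, pow_zero] at hk
          exact (Nat.card_eq_one_iff_unique.mp hk).1.elim
            (⟨_, mem_orbit l (⟨g, h3⟩ : U)⟩ : orbit U l) ⟨l, mem_orbit_self l⟩ |> congrArg Subtype.val
      rw [D.sd.pt, Nat.dvd_add_right (dvd_pow_self p he.ne')] at h3
      exact hp.one_lt.ne' (Nat.dvd_one.mp h3)
    obtain ⟨y, h5, h6, -⟩ := D.exists_on l₀ x x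
    intro u v l m m' huv hu hv hm hm' hl hl'
    obtain ⟨g, rfl, rfl⟩ := h2 h6.symm huv
    obtain rfl : g • l₀ = l := D.line_eq huv ((D.inv _ _ _).mpr h3) ((D.inv _ _ _).mpr h5) hu hv
    obtain ⟨m, rfl⟩ := MulAction.surjective g m
    obtain ⟨m', rfl⟩ := MulAction.surjective g m'
    simp only [D.inv, Ne, smul_left_cancel_iff] at hm hm' hl hl'
    have h7 : ∀ {m}, inc y m → m ≠ l₀ → ¬ inc x m := fun h h' e => h' (D.line_eq h6 h e h5 h3)
    have h8 : orbit (stabilizer G x) m = (univ.filter fun l => ¬ inc x l : Finset L) := by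
      refine Set.Subset.antisymm ?_ fun z hz => ?_
      · rintro _ ⟨⟨k, hk⟩, rfl⟩
        exact mem_filter.mpr ⟨mem_univ _, fun h => h7 hm hl ((D.inv k _ _).mp (by rwa [hk]))⟩
      · obtain ⟨k, h8, h9⟩ := D.antiflag h2 (h7 hm hl) (mem_filter.mp hz).2
        exact ⟨⟨k, h8⟩, h9⟩
    obtain ⟨⟨k, hk⟩, h9⟩ := ((orbit_eq_of_isSylowIn hp m (e * 2) hU (by
      rw [h8, Nat.card_coe_set_eq, Set.ncard_coe_finset, pow_mul]
      exact D.dual.card_off x)).trans h8).ge (mem_filter.mpr ⟨mem_univ m', h7 hm' hl'⟩)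
    replace h9 : k • m = m' := h9
    refine ⟨g * k * g⁻¹, ?_⟩
    simp only [mul_smul, inv_smul_smul, smul_left_cancel_iff]
    exact ⟨hU.le hk, D.pt_eq hl' (h9 ▸ (D.inv _ _ _).mpr hm) (D.inc_smul h5 (h4 k hk)) hm' h5, h9⟩
  obtain ⟨l, h3, -⟩ := D.exists_line x x
  obtain ⟨y, h4, h5, -⟩ := D.exists_on l x x
  obtain ⟨W, hW⟩ := H9.exists_isSylowIn p (stabilizer G x ⊓ stabilizer G y)
  have h6 : ∀ {u v}, u ≠ v → inc u l → inc v l → W ≤ stabilizer G u ⊓ stabilizer G v →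
      ∀ m m', inc v m → inc v m' → m ≠ l → m' ≠ l → ∃ w ∈ W, w • m = m' := by
    intro u v huv hu hv hle m m' hm hm' hl hl'
    have h6 : orbit (stabilizer G u ⊓ stabilizer G v : Subgroup G) m =
        (univ.filter fun k => inc v k).erase l := by
      refine Set.Subset.antisymm ?_ fun z hz => ?_
      · rintro _ ⟨⟨k, h6, h7⟩, rfl⟩
        exact mem_erase.mpr ⟨fun e => hl (MulAction.injective k (e.trans
          (D.fix_line huv hu hv (by rwa [h6]) (by rwa [h7])).symm)),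
          mem_filter.mpr ⟨mem_univ _, show inc v (k • m) by
            rwa [← mem_stabilizer_iff.mp h7, D.inv]⟩⟩
      · obtain ⟨h6, h7⟩ := mem_erase.mp hz
        obtain ⟨k, h8, h9, h10⟩ := h1 huv hu hv hm (mem_filter.mp h7).2 hl h6
        exact ⟨⟨k, h8, h9⟩, h10⟩
    obtain ⟨w, hw⟩ := ((orbit_eq_of_isSylowIn hp m e ⟨hle, hW.isPGroup, by
      have h7 := H9.card_mul_relIndex_of_le hle
      rw [card_stab_two h2 huv h5.symm, ← H9.card_mul_relIndex_of_le hW.le] at h7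
      rw [Nat.eq_of_mul_eq_mul_left Nat.card_pos h7]
      exact hW.not_dvd⟩ (by
      rw [h6, Nat.card_coe_set_eq, Set.ncard_coe_finset, card_erase_of_mem (by simpa using hv),
        D.sd.pt, Nat.add_sub_cancel])).trans h6).ge
      (mem_erase.mpr ⟨hl', mem_filter.mpr ⟨mem_univ _, hm'⟩⟩)
    exact ⟨w, w.2, hw⟩
  obtain ⟨g, h7, h8, -, h9, -⟩ := exists_commute_of_normalizes hp hW.isPGroup hW.isPGroup (by
    rintro rfl
    obtain ⟨m, h7, h8, -⟩ := D.exists_through y l l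
    obtain ⟨m', h9, h10, h11⟩ := D.exists_through y l m
    obtain ⟨w, hw, e⟩ := h6 h5.symm h3 h4 bot_le m m' h7 h9 h8 h10
    rw [Subgroup.mem_bot.mp hw, one_smul] at e
    exact h11 e.symm) fun a ha q hq => mul_mem (mul_mem ha hq) (inv_mem ha)
  have hWl : ∀ w ∈ W, w • l = l := fun w hw =>
    D.fix_line h5 h4 h3 (by rwa [(hW.le hw).2]) (by rwa [(hW.le hw).1])
  have h10 : ∀ {u v}, u ≠ v → inc u l → inc v l → W ≤ stabilizer G u ⊓ stabilizer G v →
      ∀ m, inc v m → m ≠ l → g • m = m → g ∈ axial (du inc) G v := by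
    intro u v huv hu hv hle m hm hl hg m' hm'
    by_cases e : m' = l
    · rw [e, hWl g h7]
    obtain ⟨w, hw, rfl⟩ := h6 huv hu hv hle m m' hm hm' hl e
    rw [← mul_smul, ← h9 w hw, mul_smul, hg]
  refine ⟨g, h8, ?_⟩
  obtain ⟨m, h11, h12⟩ := exists_mem_ne (show 1 < #{m : L | g • m = m} by
    rw [← D.sd.card_fix D.inv]
    exact one_lt_card.mpr ⟨y, by simpa using (hW.le h7).2, x, by simpa using (hW.le h7).1, h5⟩) l
  rw [mem_filter_univ] at h11
  obtain ⟨c, h13, h14⟩ := D.exists_pt m l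
  by_cases h15 : c = x
  · exact ⟨x, h10 h5 h4 h3 (hW.le.trans (inf_comm _ _).le) m (h15 ▸ h13) h12 h11⟩
  by_cases h16 : W ≤ stabilizer G c
  · exact ⟨c, h10 (Ne.symm h15) h3 h14 (le_inf (hW.le.trans inf_le_left) h16) m h13 h12 h11⟩
  obtain ⟨w, hw, h17⟩ := SetLike.not_le_iff_exists.mp h16
  have h18 : ¬ inc (w • c) m := fun h => h17 (D.pt_eq h12 h (D.inc_smul h14 (hWl w hw)) h13 h14)
  have h19 : w • m ≠ m := fun e => h18 (D.inc_smul h13 e)
  obtain ⟨z, h20, h21⟩ := D.exists_pt (w • m) m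
  have h22 : ¬ inc z l := fun h => h17 (by
    obtain rfl := D.pt_eq h12 h21 h h13 h14
    exact D.pt_eq (hWl w hw ▸ (MulAction.injective w).ne h12) ((D.inv _ _ _).mpr h13)
      (D.inc_smul h14 (hWl w hw)) h20 h14)
  obtain ⟨k, h23, h24⟩ := D.exists_line x z
  exact ⟨x, h10 h5 h4 h3 (hW.le.trans (inf_comm _ _).le) k h23 (fun e => h22 (e ▸ h24))
    (D.fix_line (fun e : x = z => h22 (e ▸ h3)) h23 h24 (by rwa [(hW.le h7).1]) (by
      rwa [D.fix_pt h19 h20 h21 (by rw [← mul_smul, ← h9 w hw, mul_smul, h11]) h11]))⟩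

theorem exists_persp (x : P) : ∃ g : G, g ≠ 1 ∧ ∃ c, g ∈ axial (du inc) G c := by
  by_contra hne
  refine hne (D.exists_persp_of_isPrimePow h2 x (D.isPrimePow_of_odd h2 x
    (D.odd_of_no_persp h2 x fun g hg a ha => hne ⟨g, hg, D.exists_center ha⟩)))

end Pl

end Cfsg.Agent.H8
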