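import Cfsg.Agent.H8.Plane3
import Cfsg.Agent.H8.Ito2

/-!
The Ostrom-Wagner theorem.
-/

set_option autoImplicit false
set_option linter.unusedSectionVars false

namespace Cfsg.Agent.H8

open MulAction Finset
open scoped LinearAlgebra.Projectivization

section
variable {P B : Type*} [Fintype P] [Fintype B] {inc : P → B → Prop} [∀ p b, Decidable (inc p b)]
  {k lam : ℕ} {G : Type*} [Group G] [MulAction G P] [MulAction G B]

theorem SD.exists_abelian [Finite G] [FaithfulSMul G P] (D : SD inc k lam)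
    (hinv : ∀ (g : G) p b, inc (g • p) (g • b) ↔ inc p b) (hk : 2 ≤ k)
    (h2 : ∀ {b c b' c' : B}, b ≠ c → b' ≠ c' → ∃ g : G, g • b = b' ∧ g • c = c')
    (hoff : ∀ b y, ¬ inc y b → ∃ g : G, g • b = b ∧ g • y ≠ y)
    {b₀ : B} (hb : axial inc G b₀ ≠ ⊥) :
    ∃ (b : B) (V : Subgroup G), V ≤ axial inc G b ∧ V ≠ ⊥ ∧
      (∀ g ∈ stabilizer G b, ∀ n ∈ V, g * n * g⁻¹ ∈ V) ∧ ∀ a ∈ V, ∀ b ∈ V, a * b = b * a := by
  classical
  have hone : ∀ g : G, (∀ p : P, g • p = p) → g = 1 := fun g h =>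
    eq_of_smul_eq_smul (α := P) fun p => by rw [h, one_smul]
  have hl : 0 < lam := by
    obtain ⟨p, hp, q, hq, hpq⟩ := one_lt_card.mp (hk.trans (D.blk b₀).ge)
    rw [← D.pp hpq]
    exact card_pos.mpr ⟨b₀, by simp_all⟩
  obtain ⟨b, hF⟩ : ∃ b, H7.fittingIn (axial inc G b) ≠ ⊥ := by
    by_cases hsr : ∀ b, ∀ g ∈ axial inc G b, ∀ y, ¬ inc y b → g • y = y → g = 1
    · obtain ⟨x, hx⟩ : ∃ x, ¬ inc x b₀ := by
        by_contra h
        push Not at h
        exact hb ((Subgroup.eq_bot_iff_forall _).mpr fun g hg => hone g fun p => hg p (h p))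
      obtain ⟨Z, h1, h3, h4, h5⟩ := D.exists_normal_abelian_of_semiregular hinv hk h2 hsr b₀ hb hx
      refine ⟨b₀, fun e => h3 (le_bot_iff.mp (e ▸ H7.NormalIn.le_fittingIn ⟨h1, fun n hn => ?_⟩ ?_))⟩
      · exact Subgroup.mem_normalizer_iff.mpr fun q =>
          ⟨h5 n hn q, fun hq => by simpa [mul_assoc] using h5 _ (inv_mem hn) _ hq⟩
      · let _ : CommGroup Z :=
          { (inferInstance : Group Z) with mul_comm := fun a b => Subtype.ext (h4 a a.2 b b.2) }
        infer_instance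
    push Not at hsr
    obtain ⟨b, g, hg, y, hy, hgy, hg1⟩ := hsr
    let K := axial inc G b
    let H := (stabilizer G y).subgroupOf K
    have hy' : ∀ a : G, a • b = b → ¬ inc (a • y) b := fun a ha h => hy (by rwa [← ha, hinv] at h)
    have hTI : ∀ a ∉ H, ∀ x ∈ H, a⁻¹ * x * a ∈ H → x = 1 := fun a ha x hx h =>
      Subtype.ext (hone _ (D.fix_all hinv hl x.2 hy (hy' a (D.axial_fix hinv a.2)) (Ne.symm ha) hx
        (by rw [← mul_smul, ← inv_smul_eq_iff, ← mul_smul, ← mul_assoc]; exact h)))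
    obtain ⟨K₀, hn, hK₀⟩ := H3.exists_frobeniusKernel_of_TI H hTI
    have h1 : H ≠ ⊤ := fun e => by
      obtain ⟨a, ha, hay⟩ := hoff b y hy
      have h1 : a⁻¹ * g * a⁻¹⁻¹ ∈ K := by
        simpa only [inv_smul_eq_iff.mpr ha.symm] using axial_conj hinv a⁻¹ hg
      have h3 : (a⁻¹ * g * a⁻¹⁻¹) • y = y := e.ge (Subgroup.mem_top (⟨_, h1⟩ : K))
      rw [inv_inv, mul_smul, mul_smul, inv_smul_eq_iff] at h3
      exact hg1 (hone _ (D.fix_all hinv hl hg hy (hy' a ha) hay.symm hgy h3))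
    have h3 : Group.IsNilpotent K₀ := H9.isNilpotent_of_frobenius (H := H)
      (fun e => hg1 (congrArg Subtype.val (Subgroup.mem_bot.mp (e.le (show (⟨g, hg⟩ : K) ∈ H from hgy)))))
      (by rw [Subgroup.normalizer_eq_top]; exact le_top) fun h hh h1 a ha hc =>
        H3.eq_one_of_commute_frobKer hTI hK₀ (fun e => h1 (Subgroup.mem_bot.mp
          ((H3.frobKer_inf_eq_bot hK₀).le ⟨e, hh⟩))) ha hc.eq.symm
    refine ⟨b, fun e => H3.frobKer_ne_bot h1 hK₀ ?_⟩
    rw [← Subgroup.map_eq_bot_iff_of_injective _ K.subtype_injective, ← le_bot_iff, ← e]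
    exact (H7.NormalIn.map_subtype hn).le_fittingIn (H7.isNilpotent_map h3 _)
  exact ⟨b, exists_abelian_of_fittingIn (S := stabilizer G b)
    ⟨fun g hg => D.axial_fix hinv hg, fun g hg => by
      have key : ∀ g ∈ stabilizer G b, ∀ q ∈ axial inc G b, g * q * g⁻¹ ∈ axial inc G b :=
        fun g hg q hq => by simpa only [mem_stabilizer_iff.mp hg] using axial_conj hinv g hq
      exact Subgroup.mem_normalizer_iff.mpr fun q =>
        ⟨key g hg q, fun hq => by simpa [mul_assoc] using key _ (inv_mem hg) _ hq⟩⟩ hF⟩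

end

theorem finrank_sup_submodule {F V : Type*} [Field F] [AddCommGroup V] [Module F V]
    [Module.Finite F V] {x y : ℙ F V} (h : x ≠ y) :
    Module.finrank F (x.submodule ⊔ y.submodule : Submodule F V) = 2 := by
  have h1 := Submodule.finrank_sup_add_finrank_inf_eq x.submodule y.submodule
  have h2 := Submodule.finrank_lt_finrank_of_lt (lt_of_le_of_ne (inf_le_left :
    x.submodule ⊓ y.submodule ≤ _) fun e => h (Projectivization.submodule_injective
      (Submodule.eq_of_le_of_finrank_eq (inf_eq_left.mp e)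
        (x.finrank_submodule.trans y.finrank_submodule.symm))))
  rw [x.finrank_submodule] at h1 h2
  rw [y.finrank_submodule] at h1
  omega

variable {P L : Type*} [Fintype P] [Fintype L] {inc : P → L → Prop} [∀ p l, Decidable (inc p l)]
  {n : ℕ} {G : Type*} [Group G] [MulAction G P] [MulAction G L] [Finite G]

theorem Pl.exists_coord (D : Pl inc n G)
    (h2 : ∀ {x y x' y' : P}, x ≠ y → x' ≠ y' → ∃ g : G, g • x = x' ∧ g • y = y') (x₀ : P) :
    ∃ (F : Type) (_ : Field F) (_ : Fintype F) (φ : P ≃ ℙ F (Fin 3 → F)),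
      ∀ {x y l}, x ≠ y → inc x l → inc y l → ∀ z,
        (inc z l ↔ (φ z).submodule ≤ (φ x).submodule ⊔ (φ y).submodule) := by
  have : FaithfulSMul G P := ⟨fun {g g'} h => inv_mul_eq_one.mp (D.faith _ fun p => by
    rw [mul_smul, ← h, inv_smul_smul])⟩
  have : FaithfulSMul G L := ⟨fun {g g'} h => inv_mul_eq_one.mp (D.dual.faith _ fun p => by
    rw [mul_smul, ← h, inv_smul_smul])⟩
  obtain ⟨g, hg, c, hc⟩ := D.exists_persp h2 x₀
  obtain ⟨x, V, h1, h3, h4, h5⟩ := D.dual.sd.exists_abelian D.dual.inv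
    (D.two.trans n.le_succ) h2 (fun x l hl => by
      obtain ⟨y, h1, -⟩ := D.exists_pt l l
      obtain ⟨k, h3, h4⟩ := D.exists_line x y
      obtain ⟨m, h5, h6, h7⟩ := D.exists_through y l k
      obtain ⟨g, h8, h9⟩ := D.antiflag h2 hl
        (fun h : inc x m => h7 (D.line_eq (fun e : x = y => hl (e ▸ h1)) h h5 h3 h4))
      exact ⟨g, h8, h9 ▸ h6⟩) (b₀ := c) fun e => hg (Subgroup.mem_bot.mp (e.le hc))
  obtain ⟨⟨a, ha⟩, ha1⟩ := Subgroup.ne_bot_iff_exists_ne_one.mp h3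
  obtain ⟨m, hm⟩ := D.exists_axis (h1 ha)
  obtain ⟨y, h6, h7, -⟩ := D.exists_on m x x
  obtain ⟨O, hO⟩ := exists_ON h2 x V (fun a ha => D.dual.sd.axial_fix D.dual.inv (h1 ha)) h4 h5
    ⟨a, ha, fun e => ha1 (Subtype.ext e), y, h7, hm y h6⟩
  have : Nontrivial P := ⟨y, x, h7⟩
  have h8 : ∀ {u a}, a ∈ O.N u → a ∈ axial (du inc) G u := fun {u a} ha => by
    obtain ⟨v, hv⟩ := exists_ne u
    obtain ⟨g, rfl, -⟩ := h2 h7.symm hv.symm
    simpa [mul_assoc] using axial_conj D.dual.inv g (h1 (hO g a ha))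
  have h9 : ∀ {x y l}, x ≠ y → inc x l → inc y l → ∀ z, inc z l ↔ O.col x y z := by
    intro x y l hxy hx hy z
    refine ⟨fun hz a ha hay => ?_, fun h => ?_⟩
    · by_cases ha1 : a = 1
      · rw [ha1, one_smul]
      obtain ⟨m, hm⟩ := D.exists_axis (h8 ha)
      have h9 := (D.fix_cases ha1 (h8 ha) hm hay).resolve_right hxy.symm
      by_cases hxm : inc x m
      · exact hm z (D.line_eq hxy hx hy hxm h9 ▸ hz)
      obtain ⟨b, hb, h10⟩ := O.exists_move hxy
      refine (h10 (D.fix_pt (fun e : l = m => hxm (e ▸ hx)) hy h9 (h8 hb l hx) ?_)).elim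
      by_contra h11
      have h12 := axial_conj D.inv b hm
      rw [O.comm hb ha, mul_inv_cancel_right] at h12
      exact ha1 (D.eq_one_of_two_axes h11 h12 hm)
    · by_cases hz : z = x
      · rwa [hz]
      obtain ⟨b, hb, rfl⟩ := h.exists_smul hxy hz
      exact D.inc_smul hy (h8 hb l hx)
  obtain ⟨F, _, _, r, φ, hr, hφ⟩ := O.exists_coord
  obtain rfl : r = 3 := by
    by_contra hne
    obtain ⟨r, rfl⟩ : ∃ s, r = s + 4 := ⟨r - 4, by omega⟩
    have h10 : ∀ i : Fin (r + 4), (Pi.single i 1 : Fin (r + 4) → F) ≠ 0 := fun i => by simp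
    have h11 : ∀ {i j}, i ≠ j → ON.pt φ _ (h10 i) ≠ ON.pt φ _ (h10 j) := fun {i j} h e => by
      obtain ⟨c, hc⟩ := (ON.pt_eq_iff φ).mp e
      simpa [h] using congrFun hc i
    have h01 : (0 : Fin (r + 4)) ≠ 1 := by simp
    have h23 : (2 : Fin (r + 4)) ≠ 3 := by simp [Fin.ext_iff, Nat.mod_eq_of_lt]
    obtain ⟨l, h12, h13⟩ := D.exists_line (ON.pt φ _ (h10 0)) (ON.pt φ _ (h10 1))
    obtain ⟨m, h14, h15⟩ := D.exists_line (ON.pt φ _ (h10 2)) (ON.pt φ _ (h10 3))
    obtain ⟨z, h16, h17⟩ := D.exists_pt l m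
    obtain ⟨z, hz, rfl⟩ := ON.exists_pt φ z
    obtain ⟨a, b, h18⟩ := (ON.col_pt φ hφ (h11 h01)).mp ((h9 (h11 h01) h12 h13 _).mp h16)
    obtain ⟨c, d, h19⟩ := (ON.col_pt φ hφ (h11 h23)).mp ((h9 (h11 h23) h14 h15 _).mp h17)
    have h20 := congrFun (h18.trans h19.symm) 0
    have h21 := congrFun (h18.trans h19.symm) 1
    simp [Fin.ext_iff, Nat.mod_eq_of_lt] at h20 h21
    exact hz (by simp [← h18, h20, h21])
  exact ⟨F, inferInstance, inferInstance, φ, fun h hx hy z => (h9 h hx hy z).trans (hφ _ _ _ h)⟩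

end Cfsg.Agent.H8
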