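import Cfsg.Agent.H3.Derangement

/-!
Symmetric designs: fixed points and fixed blocks, orbit theorem.
-/

set_option autoImplicit false

namespace Cfsg.Agent.H8

open MulAction Finset

/-- Symmetric designs. -/
structure SD {P B : Type*} [Fintype P] [Fintype B] (inc : P → B → Prop)
    [∀ p b, Decidable (inc p b)] (k lam : ℕ) : Prop where
  blk : ∀ b, #{p | inc p b} = k
  pt : ∀ p, #{b | inc p b} = k
  pp : ∀ {p q}, p ≠ q → #{b | inc p b ∧ inc q b} = lam
  bb : ∀ {b c}, b ≠ c → #{p | inc p b ∧ inc p c} = lam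
  lt : lam < k
  card_eq : Fintype.card P = Fintype.card B

variable {P B : Type*} [Fintype P] [Fintype B] {inc : P → B → Prop} [∀ p b, Decidable (inc p b)]
  {k lam : ℕ}

theorem card_filter_eq_sum {α : Type*} [Fintype α] (p : α → Prop) [DecidablePred p] :
    (#{a | p a} : ℤ) = ∑ a, if p a then 1 else 0 := by simp

theorem sd_param [DecidableEq P] (hb : ∀ b, #{p | inc p b} = k) (hp : ∀ p, #{b | inc p b} = k)
    (hpp : ∀ {p q}, p ≠ q → #{b | inc p b ∧ inc q b} = lam) (p : P) :
    (k : ℤ) * k = Fintype.card P * lam + (k - lam) := by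
  have h1 : ∀ q, (∑ b, (if inc p b then 1 else 0) * (if inc q b then 1 else 0) : ℤ) =
      lam + if p = q then (k : ℤ) - lam else 0 := by
    intro q
    split_ifs with h
    · subst h
      rw [add_sub_cancel, ← hp p, card_filter_eq_sum]
      exact sum_congr rfl fun b _ => by split_ifs <;> simp
    · rw [add_zero, ← hpp h, card_filter_eq_sum]
      exact sum_congr rfl fun b _ => by by_cases inc p b <;> by_cases inc q b <;> simp [*]
  have h2 := sum_congr rfl fun q (_ : q ∈ univ) => h1 q
  rw [sum_comm, sum_add_distrib, sum_const, sum_ite_eq] at h2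
  simp only [← mul_sum, ← card_filter_eq_sum, hb, ← sum_mul, hp] at h2
  simpa using h2

theorem SD.of_pp (hb : ∀ b, #{p | inc p b} = k) (hp : ∀ p, #{b | inc p b} = k)
    (hpp : ∀ {p q}, p ≠ q → #{b | inc p b ∧ inc q b} = lam) (hlt : lam < k)
    (hc : Fintype.card P = Fintype.card B) : SD inc k lam := by
  classical
  refine ⟨hb, hp, hpp, fun {b c} hbc => ?_, hlt, hc⟩
  let i : P → B → ℤ := fun p b => if inc p b then 1 else 0
  have hii : ∀ p b, i p b * i p b = i p b := fun p b => by simp only [i]; split_ifs <;> simp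
  have hib : ∀ b, ∑ p, i p b = k := fun b => by rw [← hb b, card_filter_eq_sum]
  have hip : ∀ p, ∑ b, i p b = k := fun p => by rw [← hp p, card_filter_eq_sum]
  have h1 : ∀ p q, ∑ b, i p b * i q b = lam + if p = q then (k : ℤ) - lam else 0 := by
    intro p q
    split_ifs with h
    · subst h
      simp only [hii, hip, add_sub_cancel]
    · rw [add_zero, ← hpp h, card_filter_eq_sum]
      exact sum_congr rfl fun b _ => by
        by_cases inc p b <;> by_cases inc q b <;> simp [i, *]
  let m : B → ℤ := fun c => ∑ p, i p b * i p c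
  have hm1 : ∑ c, m c = k * k := by
    rw [sum_comm]; simp only [← mul_sum, hip, ← sum_mul, hib]
  have hm2 : ∑ c, m c * m c = lam * (k * k) + (k - lam) * k := by
    simp only [m, sum_mul_sum]
    rw [sum_comm]
    have : ∀ p, ∑ c, ∑ q, i p b * i p c * (i q b * i q c) =
        lam * (i p b * k) + (k - lam) * i p b := by
      intro p
      rw [sum_comm]
      have : ∀ q, ∑ c, i p b * i p c * (i q b * i q c) =
          lam * (i p b * i q b) + if p = q then (k - lam) * (i p b * i q b) else 0 := by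
        intro q
        have : ∀ c, i p b * i p c * (i q b * i q c) = i p b * i q b * (i p c * i q c) :=
          fun c => by ring
        simp only [this, ← mul_sum, h1]
        split_ifs <;> ring
      simp only [this, sum_add_distrib, ← mul_sum, hib, sum_ite_eq, mem_univ, if_true, hii]
    rw [sum_congr rfl fun p _ => this p]
    simp only [sum_add_distrib, ← mul_sum, ← sum_mul, hib]
  obtain ⟨p, -⟩ : (univ.filter fun p => inc p b).Nonempty := by
    rw [← card_pos, hb]; omega
  have h3 := sd_param hb hp hpp p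
  have h4 : ∑ c, (m c - lam) ^ 2 = (k - lam) ^ 2 := by
    have : ∀ c, (m c - lam) ^ 2 = m c * m c - 2 * lam * m c + lam ^ 2 := fun c => by ring
    simp only [this, sum_add_distrib, sum_sub_distrib, ← mul_sum, hm1, hm2, sum_const, card_univ,
      ← hc, nsmul_eq_mul]
    linear_combination (-lam : ℤ) * h3
  rw [← add_sum_erase _ _ (mem_univ b), show m b = k by simp only [m, hii, hib], add_eq_left,
    sum_eq_zero_iff_of_nonneg fun c _ => sq_nonneg _] at h4
  have h5 := h4 c (mem_erase.mpr ⟨hbc.symm, mem_univ _⟩)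
  rw [sq_eq_zero_iff, sub_eq_zero] at h5
  have h6 : (#{p | inc p b ∧ inc p c} : ℤ) = m c := by
    rw [card_filter_eq_sum]
    exact sum_congr rfl fun p _ => by by_cases inc p b <;> by_cases inc p c <;> simp [i, *]
  exact_mod_cast h6.trans h5

variable {G : Type*} [Group G] [MulAction G P] [MulAction G B]

theorem SD.card_fix [DecidableEq P] [DecidableEq B] (h : SD inc k lam)
    (hinv : ∀ (g : G) p b, inc (g • p) (g • b) ↔ inc p b) (g : G) :
    #{p : P | g • p = p} = #{b : B | g • b = b} := by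
  have h1 : ∀ p : P, (#{b | inc p b ∧ inc (g • p) b} : ℤ) =
      lam + ((k : ℤ) - lam) * if g • p = p then 1 else 0 := by
    intro p
    split_ifs with e
    · simp [e, h.pt]
    · simp [h.pp (Ne.symm e)]
  have h2 : ∀ b : B, (#{p | inc p b ∧ inc (g • p) b} : ℤ) =
      lam + ((k : ℤ) - lam) * if g • b = b then 1 else 0 := by
    intro b
    have : ∀ p, inc (g • p) b ↔ inc p (g⁻¹ • b) := fun p => by rw [← hinv g p, smul_inv_smul]
    simp only [this]
    split_ifs with e
    · simp [inv_smul_eq_iff.mpr e.symm, h.blk]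
    · simp [h.bb (fun e' : b = g⁻¹ • b => e (eq_inv_smul_iff.mp e'))]
  have h3 : ∑ p : P, (#{b | inc p b ∧ inc (g • p) b} : ℤ) =
      ∑ b : B, (#{p | inc p b ∧ inc (g • p) b} : ℤ) := by
    simp only [card_filter_eq_sum]
    exact sum_comm
  simp only [h1, h2, sum_add_distrib, ← mul_sum, ← card_filter_eq_sum, sum_const, card_univ,
    h.card_eq, add_right_inj] at h3
  have h4 : (k : ℤ) - lam ≠ 0 := by have := h.lt; omega
  exact_mod_cast mul_left_cancel₀ h4 h3

theorem SD.orbit_of_two [Finite G] (h : SD inc k lam)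
    (hinv : ∀ (g : G) p b, inc (g • p) (g • b) ↔ inc p b) (H : Subgroup G) {p₀ p₁ : P}
    (hH : ∀ p, (∃ g ∈ H, g • p₀ = p) ∨ ∃ g ∈ H, g • p₁ = p) {a b c : B}
    (hab : ∀ g ∈ H, g • a ≠ b) (hac : ∀ g ∈ H, g • a ≠ c) : ∃ g ∈ H, g • b = c := by
  classical
  have := Fintype.ofFinite H
  have h1 := H3.sum_card_fixedBy (G := H) (Ω := P)
  have h2 := H3.sum_card_fixedBy (G := H) (Ω := B)
  have h3 : ∀ g : H, Nat.card (fixedBy P g) = Nat.card (fixedBy B g) := fun g => by
    have := h.card_fix hinv (g : G)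
    rw [Nat.card_eq_fintype_card, Nat.card_eq_fintype_card, Fintype.card_subtype,
      Fintype.card_subtype]
    convert this using 2 <;> ext <;> simp [Subgroup.smul_def]
  simp only [h3, h2] at h1
  have h4 := Nat.eq_of_mul_eq_mul_right Nat.card_pos h1
  have h5 : Nat.card (orbitRel.Quotient H P) ≤ 2 := by
    rw [← Nat.card_fin 2]
    refine Nat.card_le_card_of_surjective ![Quotient.mk _ p₀, Quotient.mk _ p₁] fun q => ?_
    induction q using Quotient.inductionOn with | _ p => ?_
    rcases hH p with ⟨g, hg, e⟩ | ⟨g, hg, e⟩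
    · exact ⟨0, (Quotient.sound (show (orbitRel H P) p p₀ from ⟨⟨g, hg⟩, e⟩)).symm⟩
    · exact ⟨1, (Quotient.sound (show (orbitRel H P) p p₁ from ⟨⟨g, hg⟩, e⟩)).symm⟩
  by_contra hne
  push Not at hne
  have := Fintype.ofFinite (orbitRel.Quotient H B)
  have h6 : 2 < Fintype.card (orbitRel.Quotient H B) := Fintype.two_lt_card_iff.mpr
    ⟨Quotient.mk _ a, Quotient.mk _ b, Quotient.mk _ c,
      fun e => by obtain ⟨g, hg⟩ := Quotient.exact e.symm; exact hab g g.2 hg,
      fun e => by obtain ⟨g, hg⟩ := Quotient.exact e.symm; exact hac g g.2 hg,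
      fun e => by obtain ⟨g, hg⟩ := Quotient.exact e.symm; exact hne g g.2 hg⟩
  rw [← Nat.card_eq_fintype_card] at h6
  omega

theorem dvd_card_of_orbits {G X : Type*} [Group G] [MulAction G X] (K : Subgroup G) (S : Finset X)
    (hS : ∀ g ∈ K, ∀ x ∈ S, g • x ∈ S) {s : ℕ} (h : ∀ x ∈ S, s ∣ Nat.card (orbit K x)) :
    s ∣ S.card := by
  classical
  rw [card_eq_sum_card_image (fun x : X => (Quotient.mk _ x : orbitRel.Quotient K X)) S]
  refine dvd_sum fun q hq => ?_
  obtain ⟨x, hx, rfl⟩ := mem_image.mp hq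
  refine (h x hx).trans (dvd_of_eq (Eq.symm ?_))
  rw [← Nat.card_eq_finsetCard]
  refine Nat.card_congr (Equiv.subtypeEquivRight fun y => ?_)
  rw [mem_filter, Quotient.eq]
  exact ⟨fun h => h.2, fun ⟨g, hg⟩ => ⟨hg ▸ hS g g.2 x hx, ⟨g, hg⟩⟩⟩

end Cfsg.Agent.H8
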